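import Mathlib

/-!
# A Chevalley–Warning lemma for isometries killed by an irreducible polynomial (any characteristic)

`core`: let `Q` be a quadratic form on a finite-dimensional space over a finite field, `f` an
isometry, `M` an `f`-stable subspace on which the polar form is nondegenerate and which is killed
by `P(f)` for a monic irreducible `P` of even degree `2 e`, with `2 e < dim M`.  Then `M` contains
`w ≠ 0` with `Q w = 0` and `polar Q (f^a w) (f^b w) = 0` for all `a b`; hence (`span_q`) the span
of the `f^k w` is totally singular.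
-/

set_option autoImplicit false

universe u

namespace Cfsg.Agent.Lib.Helper34.CWCore

variable {F : Type u} [Field F] {V : Type u} [AddCommGroup V] [Module F V]

theorem bilin_sum_sum (L : V →ₗ[F] V →ₗ[F] F) {ι : Type} (s : Finset ι) (c : ι → F)
    (u : ι → V) :
    L (∑ a ∈ s, c a • u a) (∑ a ∈ s, c a • u a) =
      ∑ a ∈ s, ∑ a' ∈ s, c a * (c a' * L (u a) (u a')) := by
  simp only [map_sum, map_smul, LinearMap.sum_apply, LinearMap.smul_apply, smul_eq_mul,
    Finset.mul_sum]
  rw [Finset.sum_comm]
  refine Finset.sum_congr rfl fun a _ => Finset.sum_congr rfl fun a' _ => ?_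
  ring

theorem polar_smul_sum (Q : QuadraticForm F V) {ι : Type} (s : Finset ι) (c : ι → F)
    (u : ι → V) (c₀ : F) (x : V) :
    QuadraticMap.polar Q (c₀ • x) (∑ j ∈ s, c j • u j) =
      ∑ j ∈ s, c₀ * (c j * QuadraticMap.polar Q x (u j)) := by
  rw [← QuadraticMap.polarBilin_apply_apply, map_smul, LinearMap.smul_apply, map_sum,
    smul_eq_mul, Finset.mul_sum]
  refine Finset.sum_congr rfl fun j _ => ?_
  rw [map_smul, smul_eq_mul, QuadraticMap.polarBilin_apply_apply]

theorem polar_sum_left (Q : QuadraticForm F V) {ι : Type} (s : Finset ι) (c : ι → F)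
    (u : ι → V) (y : V) :
    QuadraticMap.polar Q (∑ j ∈ s, c j • u j) y =
      ∑ j ∈ s, c j * QuadraticMap.polar Q (u j) y := by
  rw [← QuadraticMap.polarBilin_apply_apply, map_sum, LinearMap.sum_apply]
  refine Finset.sum_congr rfl fun j _ => ?_
  rw [map_smul, LinearMap.smul_apply, smul_eq_mul, QuadraticMap.polarBilin_apply_apply]

/-- the value of `Q` on a linear combination depends only on the values of `Q` and of the polar
form on the vectors -/
theorem qsum_congr (Q : QuadraticForm F V) {ι : Type} (s : Finset ι) (c : ι → F)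
    (u u' : ι → V) (hQ : ∀ j ∈ s, Q (u j) = Q (u' j))
    (hB : ∀ j ∈ s, ∀ k ∈ s,
      QuadraticMap.polar Q (u j) (u k) = QuadraticMap.polar Q (u' j) (u' k)) :
    Q (∑ j ∈ s, c j • u j) = Q (∑ j ∈ s, c j • u' j) := by
  classical
  induction s using Finset.induction_on with
  | empty => simp
  | insert a s ha ih =>
    have ih' := ih (fun j hj => hQ j (Finset.mem_insert_of_mem hj))
      (fun j hj k hk => hB j (Finset.mem_insert_of_mem hj) k (Finset.mem_insert_of_mem hk))
    rw [Finset.sum_insert ha, Finset.sum_insert ha, QuadraticMap.map_add (⇑Q),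
      QuadraticMap.map_add (⇑Q), ih', QuadraticMap.map_smul, QuadraticMap.map_smul,
      hQ a (Finset.mem_insert_self a s), polar_smul_sum, polar_smul_sum]
    congr 1
    refine Finset.sum_congr rfl fun j hj => ?_
    rw [hB a (Finset.mem_insert_self a s) j (Finset.mem_insert_of_mem hj)]

theorem sum_split {α : Type u} [AddCommMonoid α] (h : ℕ → α) (e : ℕ) :
    ∑ j ∈ Finset.range (2 * e + 1), h j =
      ∑ j ∈ Finset.range e, h j + h e + ∑ j ∈ Finset.range e, h (2 * e - j) := by
  have e1 : 2 * e + 1 = e + (e + 1) := by ring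
  rw [e1, Finset.sum_range_add, Finset.sum_range_succ', add_zero,
    ← Finset.sum_range_reflect (fun x => h (e + (x + 1))) e, add_assoc]
  congr 1
  rw [add_comm]
  congr 1
  refine Finset.sum_congr rfl fun x hx => ?_
  have := Finset.mem_range.1 hx
  congr 1
  omega

/-- Chevalley–Warning: `e` bilinear conditions on a space of dimension `> 2 e` have a nonzero
common isotropic vector -/
theorem exists_cw [Fintype F] (p : ℕ) [Fact p.Prime] [CharP F p] [FiniteDimensional F V]
    (L : ℕ → V →ₗ[F] V →ₗ[F] F) (e : ℕ) (M : Submodule F V)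
    (hfin : 2 * e < Module.finrank F M) :
    ∃ w ∈ M, w ≠ 0 ∧ ∀ k, k < e → L k w w = 0 := by
  classical
  obtain ⟨n, hn⟩ : ∃ n, n = Module.finrank F M := ⟨_, rfl⟩
  let b : Module.Basis (Fin n) F M := Module.finBasisOfFinrankEq F M hn.symm
  let pk : ℕ → MvPolynomial (Fin n) F := fun k =>
    ∑ a, ∑ a', MvPolynomial.C (L k (b a : V) (b a' : V)) *
      MvPolynomial.X a * MvPolynomial.X a'
  have hev : ∀ k (c : Fin n → F), MvPolynomial.eval c (pk k) =
      L k (∑ a, c a • (b a : V)) (∑ a, c a • (b a : V)) := by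
    intro k c
    rw [bilin_sum_sum]
    simp only [pk, map_sum, map_mul, MvPolynomial.eval_C, MvPolynomial.eval_X]
    refine Finset.sum_congr rfl fun a _ => Finset.sum_congr rfl fun a' _ => ?_
    ring
  have hdegk : ∀ k, (pk k).totalDegree ≤ 2 := by
    intro k
    refine MvPolynomial.totalDegree_finsetSum_le fun a _ =>
      MvPolynomial.totalDegree_finsetSum_le fun a' _ => ?_
    refine (MvPolynomial.totalDegree_mul _ _).trans ?_
    refine (add_le_add (MvPolynomial.totalDegree_mul _ _) le_rfl).trans ?_
    rw [MvPolynomial.totalDegree_C, MvPolynomial.totalDegree_X, MvPolynomial.totalDegree_X]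
  have hsum : ∑ k ∈ Finset.range e, (pk k).totalDegree < Fintype.card (Fin n) := by
    rw [Fintype.card_fin]
    calc ∑ k ∈ Finset.range e, (pk k).totalDegree
        ≤ ∑ k ∈ Finset.range e, 2 := Finset.sum_le_sum fun k _ => hdegk k
      _ = 2 * e := by simp [mul_comm]
      _ < n := by rw [hn]; exact hfin
  have hcw := char_dvd_card_solutions_of_sum_lt p hsum
  have h0 : ∀ k ∈ Finset.range e, MvPolynomial.eval (0 : Fin n → F) (pk k) = 0 := by
    intro k _
    rw [hev]
    simp
  have hcard : 1 < Fintype.card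
      {c : Fin n → F // ∀ k ∈ Finset.range e, MvPolynomial.eval c (pk k) = 0} := by
    have hpos : 0 < Fintype.card
        {c : Fin n → F // ∀ k ∈ Finset.range e, MvPolynomial.eval c (pk k) = 0} :=
      Fintype.card_pos_iff.2 ⟨⟨0, h0⟩⟩
    have h1 := Nat.le_of_dvd hpos hcw
    have h2 := (Fact.out : p.Prime).two_le
    omega
  obtain ⟨⟨c, hc⟩, hne⟩ := Fintype.exists_ne_of_one_lt_card hcard ⟨0, h0⟩
  have hcne : c ≠ 0 := fun h => hne (Subtype.ext h)
  refine ⟨∑ a, c a • (b a : V), ?_, ?_, ?_⟩
  · exact Submodule.sum_mem _ fun a _ => Submodule.smul_mem _ _ (b a).2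
  · intro h
    apply hcne
    have h' : ∑ a, c a • b a = 0 := by
      apply Subtype.ext
      rw [Submodule.coe_sum]
      simp only [Submodule.coe_smul, ZeroMemClass.coe_zero]
      exact h
    funext a
    exact Fintype.linearIndependent_iff.1 b.linearIndependent c h' a
  · intro k hk
    have h := hc k (Finset.mem_range.2 hk)
    rw [hev] at h
    exact h

theorem pow_mem_of_stable (f : V →ₗ[F] V) (M : Submodule F V) (hMst : ∀ v ∈ M, f v ∈ M)
    (k : ℕ) : ∀ v ∈ M, (f ^ k) v ∈ M := by
  induction k with
  | zero => intro v hv; rw [pow_zero, Module.End.one_apply]; exact hv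
  | succ k ih => intro v hv; rw [pow_succ', Module.End.mul_apply]; exact hMst _ (ih v hv)

theorem polar_shift (Q : QuadraticForm F V) (f : V →ₗ[F] V)
    (hpol : ∀ u v, QuadraticMap.polar Q (f u) (f v) = QuadraticMap.polar Q u v)
    (c a b : ℕ) (u v : V) :
    QuadraticMap.polar Q ((f ^ (a + c)) u) ((f ^ (b + c)) v) =
      QuadraticMap.polar Q ((f ^ a) u) ((f ^ b) v) := by
  induction c with
  | zero => rfl
  | succ c ih =>
    rw [← add_assoc, ← add_assoc, pow_succ', pow_succ', Module.End.mul_apply,
      Module.End.mul_apply, hpol, ih]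

/-- self-reciprocity of the coefficients of `P` -/
theorem selfrec (Q : QuadraticForm F V) (f : V →ₗ[F] V)
    (hpol : ∀ u v, QuadraticMap.polar Q (f u) (f v) = QuadraticMap.polar Q u v)
    (M : Submodule F V) (hMst : ∀ v ∈ M, f v ∈ M)
    (hMnd : ∀ z ∈ M, (∀ u ∈ M, QuadraticMap.polar Q u z = 0) → z = 0)
    (P : Polynomial F) (hPm : P.Monic) (hPirr : Irreducible P) (hdeg2 : 2 ≤ P.natDegree)
    (hkill : ∀ v ∈ M, (Polynomial.aeval f P) v = 0) (w : V) (hwM : w ∈ M) (hw0 : w ≠ 0) :
    ∀ j, j ≤ P.natDegree → P.coeff (P.natDegree - j) = P.coeff j := by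
  classical
  obtain ⟨D, hD⟩ : ∃ D, D = P.natDegree := ⟨_, rfl⟩
  rw [← hD]
  obtain ⟨R, hR⟩ : ∃ R : Polynomial F, R = ∑ j ∈ Finset.range (D + 1),
      Polynomial.C (P.coeff (D - j)) * Polynomial.X ^ j := ⟨_, rfl⟩
  have hRcoeff : ∀ j, j ≤ D → R.coeff j = P.coeff (D - j) := by
    intro j hj
    rw [hR, Polynomial.finsetSum_coeff, Finset.sum_eq_single j]
    · rw [Polynomial.coeff_C_mul_X_pow, if_pos rfl]
    · intro k _ hkj
      rw [Polynomial.coeff_C_mul_X_pow, if_neg (Ne.symm hkj)]
    · intro hnot
      exact absurd (Finset.mem_range.2 (by omega)) hnot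
  have hRdeg : R.natDegree ≤ D := by
    rw [hR]
    apply Polynomial.natDegree_sum_le_of_forall_le
    intro j hj
    have := Finset.mem_range.1 hj
    exact (Polynomial.natDegree_C_mul_X_pow_le _ _).trans (by omega)
  have hRf : ∀ v, (Polynomial.aeval f R) v =
      ∑ j ∈ Finset.range (D + 1), P.coeff (D - j) • (f ^ j) v := by
    intro v
    rw [hR, map_sum, LinearMap.sum_apply]
    refine Finset.sum_congr rfl fun j _ => ?_
    rw [map_mul, Polynomial.aeval_C, map_pow, Polynomial.aeval_X, Module.End.mul_apply,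
      Module.algebraMap_end_apply]
  have hPf : ∀ v, (Polynomial.aeval f P) v =
      ∑ j ∈ Finset.range (D + 1), P.coeff j • (f ^ j) v := by
    intro v
    rw [Polynomial.aeval_eq_sum_range, LinearMap.sum_apply, hD]
    rfl
  have hRkill : ∀ v ∈ M, (Polynomial.aeval f R) v = 0 := by
    intro v hv
    apply hMnd _ (by
      rw [hRf]
      exact Submodule.sum_mem _ fun j _ =>
        Submodule.smul_mem _ _ (pow_mem_of_stable f M hMst j v hv))
    intro u hu
    rw [hRf, ← QuadraticMap.polarBilin_apply_apply, map_sum]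
    have h1 : ∀ j ∈ Finset.range (D + 1),
        (QuadraticMap.polarBilin Q u) (P.coeff (D - j) • (f ^ j) v) =
          P.coeff (D - j) * QuadraticMap.polar Q ((f ^ (D - j)) u) ((f ^ D) v) := by
      intro j hj
      have hj' := Finset.mem_range.1 hj
      rw [map_smul, smul_eq_mul, QuadraticMap.polarBilin_apply_apply]
      congr 1
      have h := polar_shift Q f hpol (D - j) 0 j u v
      rw [zero_add, show j + (D - j) = D by omega, pow_zero, Module.End.one_apply] at h
      exact h.symm
    rw [Finset.sum_congr rfl h1]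
    have h2 := Finset.sum_range_reflect
      (fun k => P.coeff k * QuadraticMap.polar Q ((f ^ k) u) ((f ^ D) v)) (D + 1)
    simp only [Nat.add_sub_cancel] at h2
    rw [h2]
    have h3 : QuadraticMap.polar Q ((Polynomial.aeval f P) u) ((f ^ D) v) = 0 := by
      rw [hkill u hu]; simp
    rw [hPf, ← QuadraticMap.polarBilin_apply_apply, map_sum, LinearMap.sum_apply] at h3
    rw [← h3]
    refine Finset.sum_congr rfl fun j _ => ?_
    rw [map_smul, LinearMap.smul_apply, smul_eq_mul, QuadraticMap.polarBilin_apply_apply]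
  have hdvd : P ∣ R := by
    by_contra hnd
    have hcop : IsCoprime P R := (Irreducible.coprime_iff_not_dvd hPirr).2 hnd
    obtain ⟨a, b, hab⟩ := hcop
    have h1 : (Polynomial.aeval f (a * P + b * R)) w = w := by
      rw [hab, map_one, Module.End.one_apply]
    rw [map_add, map_mul, map_mul, LinearMap.add_apply, Module.End.mul_apply,
      Module.End.mul_apply, hkill w hwM, hRkill w hwM, map_zero, map_zero, add_zero] at h1
    exact hw0 h1.symm
  obtain ⟨S, hS⟩ := hdvd
  have hR0 : R ≠ 0 := by
    intro h
    have h1 := hRcoeff 0 (Nat.zero_le _)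
    rw [h, Polynomial.coeff_zero, Nat.sub_zero, hD, hPm.coeff_natDegree] at h1
    exact zero_ne_one h1
  have hS0 : S ≠ 0 := by
    rintro rfl
    exact hR0 (by rw [hS, mul_zero])
  have hSdeg : S.natDegree = 0 := by
    have h1 := Polynomial.natDegree_mul hPm.ne_zero hS0
    rw [← hS] at h1
    omega
  obtain ⟨lam, hlam⟩ : ∃ lam, S = Polynomial.C lam :=
    ⟨S.coeff 0, Polynomial.eq_C_of_natDegree_eq_zero hSdeg⟩
  have hcoef : ∀ j, j ≤ D → P.coeff (D - j) = lam * P.coeff j := by
    intro j hj
    rw [← hRcoeff j hj, hS, hlam, mul_comm, Polynomial.coeff_C_mul]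
  have hP1 : Polynomial.eval 1 P ≠ 0 := by
    intro h
    have h1 := Polynomial.degree_eq_one_of_irreducible_of_root hPirr h
    rw [Polynomial.degree_eq_natDegree hPm.ne_zero] at h1
    have h2 : P.natDegree = 1 := by exact_mod_cast h1
    omega
  have hsum : ∑ j ∈ Finset.range (D + 1), P.coeff (D - j) =
      ∑ j ∈ Finset.range (D + 1), P.coeff j := by
    have h2 := Finset.sum_range_reflect (fun k => P.coeff k) (D + 1)
    simp only [Nat.add_sub_cancel] at h2
    exact h2
  have heval : Polynomial.eval 1 P = ∑ j ∈ Finset.range (D + 1), P.coeff j := by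
    rw [Polynomial.eval_eq_sum_range, hD]
    simp
  have hlam1 : lam = 1 := by
    have h3 : ∑ j ∈ Finset.range (D + 1), P.coeff (D - j) =
        lam * ∑ j ∈ Finset.range (D + 1), P.coeff j := by
      rw [Finset.mul_sum]
      exact Finset.sum_congr rfl fun j hj => hcoef j (by have := Finset.mem_range.1 hj; omega)
    rw [hsum, ← heval] at h3
    have h4 : (1 - lam) * Polynomial.eval 1 P = 0 := by linear_combination h3
    rcases mul_eq_zero.1 h4 with h | h
    · exact (sub_eq_zero.1 h).symm
    · exact absurd h hP1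
  intro j hj
  rw [hcoef j hj, hlam1, one_mul]

theorem q_pow (Q : QuadraticForm F V) (f : V →ₗ[F] V) (hiso : ∀ v, Q (f v) = Q v) (k : ℕ)
    (v : V) : Q ((f ^ k) v) = Q v := by
  induction k with
  | zero => rw [pow_zero, Module.End.one_apply]
  | succ k ih => rw [pow_succ', Module.End.mul_apply, hiso, ih]

/-- the core: a nonzero singular vector of `M` whose cyclic span is totally isotropic -/
theorem core [Fintype F] (p : ℕ) [Fact p.Prime] [CharP F p] [FiniteDimensional F V]
    (Q : QuadraticForm F V) (f : V →ₗ[F] V) (hiso : ∀ v, Q (f v) = Q v)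
    (M : Submodule F V) (hMst : ∀ v ∈ M, f v ∈ M)
    (hMnd : ∀ z ∈ M, (∀ u ∈ M, QuadraticMap.polar Q u z = 0) → z = 0)
    (P : Polynomial F) (hPm : P.Monic) (hPirr : Irreducible P) (e : ℕ) (he : 0 < e)
    (hdeg : P.natDegree = 2 * e)
    (hkill : ∀ v ∈ M, (Polynomial.aeval f P) v = 0)
    (hfin : 2 * e < Module.finrank F M) :
    ∃ w ∈ M, w ≠ 0 ∧ Q w = 0 ∧
      ∀ a b : ℕ, QuadraticMap.polar Q ((f ^ a) w) ((f ^ b) w) = 0 := by
  classical
  obtain ⟨B', hB'⟩ := LinearMap.BilinMap.toQuadraticMap_surjective Q
  have hB'Q : ∀ v, B' v v = Q v := fun v => by rw [← hB']; rfl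
  obtain ⟨w, hwM, hw0, hL⟩ := exists_cw p
    (fun k => if k = 0 then B' else (QuadraticMap.polarBilin Q).comp (f ^ k)) e M hfin
  have hQw : Q w = 0 := by
    have h := hL 0 he
    rw [if_pos rfl, hB'Q] at h
    exact h
  have hlow : ∀ k, k < e → QuadraticMap.polar Q ((f ^ k) w) w = 0 := by
    intro k hk
    rcases Nat.eq_zero_or_pos k with rfl | hkpos
    · rw [pow_zero, Module.End.one_apply, QuadraticMap.polar_self, hQw, smul_zero]
    · have h := hL k hk
      rw [if_neg (Nat.pos_iff_ne_zero.1 hkpos), LinearMap.comp_apply,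
        QuadraticMap.polarBilin_apply_apply] at h
      exact h
  have hpol : ∀ u v, QuadraticMap.polar Q (f u) (f v) = QuadraticMap.polar Q u v := by
    intro u v
    unfold QuadraticMap.polar
    rw [← map_add, hiso, hiso, hiso]
  have hT1 : ∀ a b, b ≤ a → QuadraticMap.polar Q ((f ^ a) w) ((f ^ b) w) =
      QuadraticMap.polar Q ((f ^ (a - b)) w) w := by
    intro a b hab
    have h := polar_shift Q f hpol b (a - b) 0 w w
    rw [Nat.sub_add_cancel hab, zero_add] at h
    rw [h, pow_zero, Module.End.one_apply]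
  have hT2 : ∀ a b, a ≤ b → QuadraticMap.polar Q ((f ^ a) w) ((f ^ b) w) =
      QuadraticMap.polar Q ((f ^ (b - a)) w) w := by
    intro a b hab
    rw [QuadraticMap.polar_comm, hT1 b a hab]
  have hPw : (Polynomial.aeval f P) w = 0 := hkill w hwM
  have hrel : ∀ m s, ∑ j ∈ Finset.range (P.natDegree + 1),
      P.coeff j * QuadraticMap.polar Q ((f ^ (j + m)) w) ((f ^ s) w) = 0 := by
    intro m s
    have h1 : (f ^ m) ((Polynomial.aeval f P) w) = 0 := by rw [hPw, map_zero]
    rw [Polynomial.aeval_eq_sum_range, LinearMap.sum_apply, map_sum] at h1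
    have h2 : QuadraticMap.polar Q
        (∑ j ∈ Finset.range (P.natDegree + 1), (f ^ m) ((P.coeff j • f ^ j) w)) ((f ^ s) w) = 0 := by
      rw [h1]; simp
    rw [← QuadraticMap.polarBilin_apply_apply, map_sum, LinearMap.sum_apply] at h2
    rw [← h2]
    refine Finset.sum_congr rfl fun j _ => ?_
    rw [LinearMap.smul_apply, map_smul, map_smul, LinearMap.smul_apply, smul_eq_mul,
      QuadraticMap.polarBilin_apply_apply, ← Module.End.mul_apply, ← pow_add, add_comm m j]
  have hsr := selfrec Q f hpol M hMst hMnd P hPm hPirr (by omega) hkill w hwM hw0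
  rw [hdeg] at hsr
  have hc0 : P.coeff 0 = 1 := by
    have h := hsr (2 * e) le_rfl
    rw [Nat.sub_self] at h
    rw [h, ← hdeg]
    exact hPm.coeff_natDegree
  have hP1 : Polynomial.eval 1 P ≠ 0 := by
    intro h
    have h1 := Polynomial.degree_eq_one_of_irreducible_of_root hPirr h
    rw [Polynomial.degree_eq_natDegree hPm.ne_zero] at h1
    have h2 : P.natDegree = 1 := by exact_mod_cast h1
    omega
  have hte : QuadraticMap.polar Q ((f ^ e) w) w = 0 := by
    by_cases h2 : (2 : F) = 0
    · -- characteristic two: `P.coeff e = P(1) ≠ 0`, use the quadratic identity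
      have hce : P.coeff e ≠ 0 := by
        intro hce
        apply hP1
        rw [Polynomial.eval_eq_sum_range, hdeg]
        simp only [one_pow, mul_one]
        rw [sum_split (fun j => P.coeff j) e, hce, add_zero,
          Finset.sum_congr rfl (fun j hj => hsr j (by have := Finset.mem_range.1 hj; omega)),
          ← two_mul, h2, zero_mul]
      -- the vector identity `A + c_e f^e w + B = 0`
      have hvec : ∑ j ∈ Finset.range e, P.coeff j • (f ^ j) w + P.coeff e • (f ^ e) w +
          ∑ j ∈ Finset.range e, P.coeff j • (f ^ (2 * e - j)) w = 0 := by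
        have h1 := hPw
        rw [Polynomial.aeval_eq_sum_range, LinearMap.sum_apply, hdeg,
          sum_split (fun j => (P.coeff j • f ^ j) w) e] at h1
        rw [← h1]
        congr 1
        refine Finset.sum_congr rfl fun j hj => ?_
        rw [LinearMap.smul_apply, hsr j (by have := Finset.mem_range.1 hj; omega)]
      have hQAB : Q (∑ j ∈ Finset.range e, P.coeff j • (f ^ (2 * e - j)) w) =
          Q (∑ j ∈ Finset.range e, P.coeff j • (f ^ j) w) := by
        apply qsum_congr
        · intro j _
          rw [q_pow Q f hiso, q_pow Q f hiso]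
        · intro j hj k hk
          have hj' := Finset.mem_range.1 hj
          have hk' := Finset.mem_range.1 hk
          rcases le_total j k with h | h
          · rw [hT1 _ _ (by omega), hT2 _ _ h, show 2 * e - j - (2 * e - k) = k - j by omega]
          · rw [hT2 _ _ (by omega), hT1 _ _ h, show 2 * e - k - (2 * e - j) = j - k by omega]
      have hB : ∑ j ∈ Finset.range e, P.coeff j • (f ^ (2 * e - j)) w =
          -(∑ j ∈ Finset.range e, P.coeff j • (f ^ j) w + P.coeff e • (f ^ e) w) :=
        eq_neg_of_add_eq_zero_right hvec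
      rw [hB, QuadraticMap.map_neg, QuadraticMap.map_add (⇑Q), QuadraticMap.map_smul,
        q_pow Q f hiso, hQw, smul_zero, add_zero, QuadraticMap.polar_smul_right] at hQAB
      have h3 : P.coeff e • QuadraticMap.polar (⇑Q)
          (∑ j ∈ Finset.range e, P.coeff j • (f ^ j) w) ((f ^ e) w) = 0 := by
        have h4 := hQAB
        rw [add_eq_left] at h4
        exact h4
      have h5 : QuadraticMap.polar (⇑Q)
          (∑ j ∈ Finset.range e, P.coeff j • (f ^ j) w) ((f ^ e) w) = 0 := by
        rcases smul_eq_zero.1 h3 with h | h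
        · exact absurd h hce
        · exact h
      rw [polar_sum_left] at h5
      obtain ⟨e', rfl⟩ : ∃ e', e = e' + 1 := ⟨e - 1, by omega⟩
      rw [Finset.sum_range_succ'] at h5
      have hmid : ∑ j ∈ Finset.range e',
          P.coeff (j + 1) * QuadraticMap.polar Q ((f ^ (j + 1)) w) ((f ^ (e' + 1)) w) = 0 := by
        refine Finset.sum_eq_zero fun j hj => ?_
        have hj' := Finset.mem_range.1 hj
        rw [hT2 _ _ (by omega), hlow _ (by omega), mul_zero]
      rw [hmid, zero_add, hc0, one_mul, hT2 0 (e' + 1) (Nat.zero_le _), Nat.sub_zero] at h5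
      exact h5
    · -- odd characteristic: the bilinear relation
      have h := hrel 0 e
      rw [hdeg] at h
      obtain ⟨e', he'⟩ : ∃ e', 2 * e = e' + 1 := ⟨2 * e - 1, by omega⟩
      rw [he', Finset.sum_range_succ, Finset.sum_range_succ'] at h
      have hmid : ∑ j ∈ Finset.range e',
          P.coeff (j + 1) * QuadraticMap.polar Q ((f ^ (j + 1 + 0)) w) ((f ^ e) w) = 0 := by
        refine Finset.sum_eq_zero fun j hj => ?_
        have hj' := Finset.mem_range.1 hj
        rcases le_total (j + 1) e with h' | h'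
        · rw [add_zero, hT2 _ _ h', hlow _ (by omega), mul_zero]
        · rw [add_zero, hT1 _ _ h', hlow _ (by omega), mul_zero]
      have hlead : P.coeff (e' + 1) = 1 := by
        rw [← he', ← hdeg]; exact hPm.coeff_natDegree
      rw [hmid, zero_add, hlead, one_mul, add_zero, add_zero, hT2 0 e (Nat.zero_le _),
        hT1 (e' + 1) e (by omega), hc0, one_mul] at h
      have e1 : e' + 1 - e = e := by omega
      rw [e1, Nat.sub_zero] at h
      have h5 : (2 : F) * QuadraticMap.polar Q ((f ^ e) w) w = 0 := by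
        linear_combination h
      exact (mul_eq_zero.1 h5).resolve_left h2
  have ht : ∀ k, QuadraticMap.polar Q ((f ^ k) w) w = 0 := by
    intro k
    induction k using Nat.strong_induction_on with
    | _ k ih =>
      rcases lt_trichotomy k e with hk | hk | hk
      · exact hlow k hk
      · rw [hk]; exact hte
      · have h := hrel (k - P.natDegree) (P.natDegree - k)
        rw [Finset.sum_range_succ] at h
        have hmid : ∑ j ∈ Finset.range P.natDegree,
            P.coeff j * QuadraticMap.polar Q ((f ^ (j + (k - P.natDegree))) w)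
              ((f ^ (P.natDegree - k)) w) = 0 := by
          refine Finset.sum_eq_zero fun j hj => ?_
          have hj' := Finset.mem_range.1 hj
          rcases le_total (j + (k - P.natDegree)) (P.natDegree - k) with h' | h'
          · rw [hT2 _ _ h', ih _ (by omega), mul_zero]
          · rw [hT1 _ _ h', ih _ (by omega), mul_zero]
        rw [hmid, zero_add, hPm.coeff_natDegree, one_mul, hT1 _ _ (by omega)] at h
        have e1 : P.natDegree + (k - P.natDegree) - (P.natDegree - k) = k := by omega
        rw [e1] at h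
        exact h
  refine ⟨w, hwM, hw0, hQw, fun a b => ?_⟩
  rcases le_total a b with h | h
  · rw [hT2 _ _ h, ht]
  · rw [hT1 _ _ h, ht]

/-- the cyclic span of such a vector is totally isotropic -/
theorem span_polar (Q : QuadraticForm F V) (f : V →ₗ[F] V) (w : V)
    (hpol : ∀ a b : ℕ, QuadraticMap.polar Q ((f ^ a) w) ((f ^ b) w) = 0) :
    ∀ u ∈ Submodule.span F (Set.range fun k : ℕ => (f ^ k) w),
      ∀ v ∈ Submodule.span F (Set.range fun k : ℕ => (f ^ k) w),
        QuadraticMap.polar Q u v = 0 := by
  have h1 : ∀ b : ℕ, ∀ u ∈ Submodule.span F (Set.range fun k : ℕ => (f ^ k) w),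
      QuadraticMap.polar Q u ((f ^ b) w) = 0 := by
    intro b u hu
    induction hu using Submodule.span_induction with
    | mem u hu =>
      obtain ⟨a, rfl⟩ := hu
      exact hpol a b
    | zero => simp
    | add u v _ _ hu hv => rw [QuadraticMap.polar_add_left, hu, hv, add_zero]
    | smul c u _ hu => rw [QuadraticMap.polar_smul_left, hu, smul_zero]
  intro u hu v hv
  induction hv using Submodule.span_induction with
  | mem v hv =>
    obtain ⟨a, rfl⟩ := hv
    exact h1 a u hu
  | zero => simp
  | add v v' _ _ hv hv' => rw [QuadraticMap.polar_add_right, hv, hv', add_zero]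
  | smul c v _ hv => rw [QuadraticMap.polar_smul_right, hv, smul_zero]

/-- the cyclic span of such a vector is totally singular -/
theorem span_q (Q : QuadraticForm F V) (f : V →ₗ[F] V) (hiso : ∀ v, Q (f v) = Q v) (w : V)
    (hQw : Q w = 0)
    (hpol : ∀ a b : ℕ, QuadraticMap.polar Q ((f ^ a) w) ((f ^ b) w) = 0) :
    ∀ u ∈ Submodule.span F (Set.range fun k : ℕ => (f ^ k) w), Q u = 0 := by
  intro u hu
  induction hu using Submodule.span_induction with
  | mem u hu =>
    obtain ⟨a, rfl⟩ := hu
    show Q ((f ^ a) w) = 0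
    rw [q_pow Q f hiso, hQw]
  | zero => simp
  | add u v hu' hv' hu hv =>
    rw [QuadraticMap.map_add (⇑Q), hu, hv, span_polar Q f w hpol u hu' v hv', add_zero, add_zero]
  | smul c u _ hu => rw [QuadraticMap.map_smul, hu, smul_zero]

end Cfsg.Agent.Lib.Helper34.CWCore
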