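import Mathlib
import Cfsg.Agent.S0093
import Cfsg.Agent.S0121
import Cfsg.Agent.S0012

set_option autoImplicit false

namespace Cfsg.Agent.Lib.Helper34.Critical

open Subgroup

/-- Thompson's critical subgroup of a finite `p`-group, in the element form used by the
K-infinity statements. -/
theorem exists_critical {P : Type*} [Group P] [Finite P] {p : ℕ} [Fact p.Prime]
    (hP : IsPGroup p P) :
    ∃ C : Subgroup P, C.Characteristic ∧
      (∀ a ∈ C, a ^ p ∈ C ⊓ centralizer (C : Set P)) ∧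
      ⁅C, C⁆ ≤ centralizer (C : Set P) ∧
      ⁅(⊤ : Subgroup P), C⁆ ≤ C ⊓ centralizer (C : Set P) ∧
      centralizer (C : Set P) ≤ C ∧
      (∀ φ : MulAut P, (orderOf φ).Coprime p → (∀ a ∈ C, φ a = a) → φ = 1) := by
  obtain ⟨H, hchar, h1, h2, h3⟩ := Cfsg.Agent.S0093.result hP
  have hHp : IsPGroup p ↥H := hP.to_subgroup H
  have h12 := Cfsg.Agent.S0012.result (G := ↥H) p hHp
  refine ⟨H, hchar, ?_, ?_, ?_, h3, ?_⟩
  · intro a ha
    refine ⟨H.pow_mem ha p, ?_⟩
    apply h1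
    exact ⟨⟨a, ha⟩ ^ p, h12.2 ⟨a, ha⟩, rfl⟩
  · rw [← Subgroup.map_subtype_commutator]
    exact le_trans (Subgroup.map_mono h12.1) h1
  · rw [Subgroup.commutator_comm]
    exact h2
  · intro φ hφ h
    exact Cfsg.Agent.S0121.result hP H hchar h1 h2 h3 φ hφ h

/-- The critical subgroup of a finite `p`-subgroup `T` of a group `G`, as a subgroup of `G`. -/
theorem exists_critical_in {G : Type*} [Group G] {p : ℕ} [Fact p.Prime] (T : Subgroup G)
    [Finite ↥T] (hT : IsPGroup p ↥T) :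
    ∃ A : Subgroup G, A ≤ T ∧ (A.subgroupOf T).Characteristic ∧
      (∀ a ∈ A, a ^ p ∈ A ⊓ centralizer (A : Set G)) ∧
      ⁅A, A⁆ ≤ centralizer (A : Set G) ∧
      ⁅T, A⁆ ≤ A ⊓ centralizer (A : Set G) ∧
      T ⊓ centralizer (A : Set G) = A ⊓ centralizer (A : Set G) ∧
      (∀ φ : MulAut ↥T, (orderOf φ).Coprime p → (∀ a : ↥T, (a : G) ∈ A → φ a = a) → φ = 1) := by
  obtain ⟨C, hchar, hpow, hcc, htc, hcen, haut⟩ := exists_critical hT
  have hAT : C.map T.subtype ≤ T := Subgroup.map_subtype_le C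
  have hsub : (C.map T.subtype).subgroupOf T = C :=
    Subgroup.comap_map_eq_self_of_injective T.subtype_injective C
  have hmem : ∀ x : ↥T, (x : G) ∈ C.map T.subtype ↔ x ∈ C := by
    intro x
    constructor
    · rintro ⟨y, hy, hxy⟩
      have : y = x := Subtype.ext hxy
      rwa [← this]
    · intro hx
      exact ⟨x, hx, rfl⟩
  have hcent : ∀ x : ↥T, x ∈ centralizer (C : Set ↥T) →
      (x : G) ∈ centralizer ((C.map T.subtype : Subgroup G) : Set G) := by
    intro x hx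
    rw [Subgroup.mem_centralizer_iff]
    rintro _ ⟨c, hc, rfl⟩
    have := (Subgroup.mem_centralizer_iff.mp hx) c hc
    exact congrArg Subtype.val this
  have hcent' : ∀ x : ↥T, (x : G) ∈ centralizer ((C.map T.subtype : Subgroup G) : Set G) →
      x ∈ centralizer (C : Set ↥T) := by
    intro x hx
    rw [Subgroup.mem_centralizer_iff]
    intro c hc
    apply Subtype.ext
    exact (Subgroup.mem_centralizer_iff.mp hx) (c : G) ⟨c, hc, rfl⟩
  have hZ : (C ⊓ centralizer (C : Set ↥T)).map T.subtype ≤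
      C.map T.subtype ⊓ centralizer ((C.map T.subtype : Subgroup G) : Set G) := by
    rintro _ ⟨x, hx, rfl⟩
    exact ⟨⟨x, hx.1, rfl⟩, hcent x hx.2⟩
  refine ⟨C.map T.subtype, hAT, ?_, ?_, ?_, ?_, ?_, ?_⟩
  · rw [hsub]
    exact hchar
  · rintro _ ⟨c, hc, rfl⟩
    apply hZ
    exact ⟨c ^ p, hpow c hc, rfl⟩
  · rw [← Subgroup.map_commutator]
    refine le_trans (Subgroup.map_mono hcc) ?_
    rintro _ ⟨x, hx, rfl⟩
    exact hcent x hx
  · have hT' : ⁅T, C.map T.subtype⁆ = (⁅(⊤ : Subgroup ↥T), C⁆).map T.subtype := by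
      rw [Subgroup.map_commutator, ← MonoidHom.range_eq_map, Subgroup.range_subtype]
    rw [hT']
    exact le_trans (Subgroup.map_mono htc) hZ
  · apply le_antisymm
    · rintro x ⟨hxT, hxc⟩
      refine ⟨?_, hxc⟩
      have h1 : (⟨x, hxT⟩ : ↥T) ∈ centralizer (C : Set ↥T) := hcent' ⟨x, hxT⟩ hxc
      exact (hmem ⟨x, hxT⟩).mpr (hcen h1)
    · exact inf_le_inf_right _ hAT
  · intro φ hφ h
    apply haut φ hφ
    intro a ha
    exact h a ((hmem a).mpr ha)

end Cfsg.Agent.Lib.Helper34.Critical
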