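import Mathlib
import Cfsg.Agent.Lib.Helper76.BrRBStmt

/-! # S4504 piece YTWO (helper34): a set of two exceptional characters -/

set_option autoImplicit false

namespace Cfsg.Agent.Lib.Helper34.BrRBYTWO

open Cfsg Cfsg.Agent.Lib.Helper76 Cfsg.Agent.Lib.Helper76.BrRB
open scoped Classical

universe u

theorem sPt_eq {L : Type u} [Group L] [Fintype L] {p : ℕ} (P : Sylow p L) (F : L → ℂ) (k : L) :
    sPt P F k = ∑ᶠ u ∈ ((P : Subgroup L) : Set L), F (u * k) := by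
  rw [finsum_mem_def, finsum_eq_sum_of_fintype]
  unfold sPt
  refine Finset.sum_congr rfl (fun u _ => ?_)
  rw [Set.indicator_apply]
  simp only [SetLike.mem_coe]

theorem pair {L : Type u} [Group L] [Fintype L] (p : ℕ) (P : Sylow p L)
    (x y : IrrCharacter L) (hxy : x ≠ y) (ε' : ℤ) (A : L → ℂ) (hε : ε' = 1 ∨ ε' = -1)
    (h1 : ∀ g : L, p ∣ orderOf g →
      ∑ᶠ η ∈ ({x, y} : Set (IrrCharacter L)), (η : L → ℂ) g = -(ε' : ℂ))
    (h2 : ∀ g : L, ¬ p ∣ orderOf g → ∀ η ∈ ({x, y} : Set (IrrCharacter L)),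
      A g = (ε' : ℂ) * (η : L → ℂ) g)
    (h3 : ∀ η ∈ ({x, y} : Set (IrrCharacter L)), ∀ η' ∈ ({x, y} : Set (IrrCharacter L)),
      ∀ c : L, c ∈ Subgroup.centralizer ((P : Subgroup L) : Set L) →
      ∑ᶠ u ∈ ((P : Subgroup L) : Set L), (η : L → ℂ) (u * c) =
        ∑ᶠ u ∈ ((P : Subgroup L) : Set L), (η' : L → ℂ) (u * c)) :
    (∀ g : L, p ∣ orderOf g → (x : L → ℂ) g + (y : L → ℂ) g = -(ε' : ℂ)) ∧
    (∀ g : L, ¬ p ∣ orderOf g → (x : L → ℂ) g = (y : L → ℂ) g) ∧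
    (∀ k : L, k ∈ Subgroup.centralizer ((P : Subgroup L) : Set L) →
      sPt P (x : L → ℂ) k = sPt P (y : L → ℂ) k) := by
  have hε0 : (ε' : ℂ) ≠ 0 := by
    rcases hε with rfl | rfl <;> simp
  refine ⟨?_, ?_, ?_⟩
  · intro g hg
    have h := h1 g hg
    rwa [finsum_mem_pair hxy] at h
  · intro g hg
    have e1 := h2 g hg x (Set.mem_insert _ _)
    have e2 := h2 g hg y (Set.mem_insert_of_mem _ rfl)
    exact mul_left_cancel₀ hε0 (e1.symm.trans e2)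
  · intro k hk
    rw [sPt_eq, sPt_eq]
    exact h3 x (Set.mem_insert _ _) y (Set.mem_insert_of_mem _ rfl) k hk

theorem main : BrRB.YTWO.{u} := by
  intro L _ _ p _ P Y ε' A hY hε h1 h2 h3 η hη
  have hY2 : Y.ncard = 2 := by
    rw [← Nat.card_coe_set_eq]; exact hY
  obtain ⟨a, b, hab, rfl⟩ := Set.ncard_eq_two.1 hY2
  rcases hη with rfl | hη
  · exact ⟨b, pair p P η b hab ε' A hε h1 h2 h3⟩
  · rw [Set.mem_singleton_iff] at hη
    subst hη
    rw [Set.pair_comm] at h1 h2 h3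
    exact ⟨a, pair p P η a hab.symm ε' A hε h1 h2 h3⟩

end Cfsg.Agent.Lib.Helper34.BrRBYTWO
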