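import Mathlib

set_option autoImplicit false
set_option linter.unusedSectionVars false

namespace Cfsg.Agent.Lib.Helper34.Cocycle

variable {G Ω A : Type*} [Group G] [MulAction G Ω] [CommGroup A] [DecidableEq Ω]

/-- cocycle condition for `c : G → Ω → A`. -/
def IsCoc (c : G → Ω → A) : Prop := ∀ g h ω, c (g * h) ω = c g (h • ω) * c h ω

/-- the finset `X` is invariant under `g`. -/
def EInv (g : G) (X : Finset Ω) : Prop := ∀ ω, g • ω ∈ X ↔ ω ∈ X

theorem einv_one (X : Finset Ω) : EInv (1 : G) X := fun ω => by rw [one_smul]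

theorem EInv.mul {g h : G} {X : Finset Ω} (hg : EInv g X) (hh : EInv h X) : EInv (g * h) X :=
  fun ω => by rw [mul_smul, hg, hh]

theorem EInv.inv {g : G} {X : Finset Ω} (hg : EInv g X) : EInv g⁻¹ X :=
  fun ω => by rw [← hg (g⁻¹ • ω), smul_inv_smul]

theorem EInv.pow {g : G} {X : Finset Ω} (hg : EInv g X) (n : ℕ) : EInv (g ^ n) X := by
  induction n with
  | zero => rw [pow_zero]; exact einv_one X
  | succ n ih => rw [pow_succ]; exact ih.mul hg

theorem EInv.sdiff {g : G} {X Y : Finset Ω} (hX : EInv g X) (hY : EInv g Y) : EInv g (X \ Y) :=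
  fun ω => by rw [Finset.mem_sdiff, Finset.mem_sdiff, hX, hY]

theorem einv_of_subgroup {K : Subgroup G} {X : Finset Ω} (h : ∀ k ∈ K, ∀ ω ∈ X, k • ω ∈ X)
    {k : G} (hk : k ∈ K) : EInv k X := by
  intro ω
  constructor
  · intro h1
    have := h k⁻¹ (K.inv_mem hk) _ h1
    rwa [inv_smul_smul] at this
  · exact h k hk ω

theorem prod_smul {g : G} {X : Finset Ω} (hg : EInv g X) (f : Ω → A) :
    ∏ ω ∈ X, f (g • ω) = ∏ ω ∈ X, f ω := by
  refine Finset.prod_nbij' (fun ω => g • ω) (fun ω => g⁻¹ • ω) ?_ ?_ ?_ ?_ ?_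
  · intro ω hω
    exact (hg ω).mpr hω
  · intro ω hω
    exact (hg.inv ω).mpr hω
  · intro ω _
    exact inv_smul_smul g ω
  · intro ω _
    exact smul_inv_smul g ω
  · intro ω _
    rfl

theorem coc_one {c : G → Ω → A} (hc : IsCoc c) (ω : Ω) : c 1 ω = 1 := by
  have h := hc 1 1 ω
  rw [one_smul, mul_one] at h
  exact left_eq_mul.mp h

theorem prod_mul {c : G → Ω → A} (hc : IsCoc c) {g h : G} {X : Finset Ω} (hh : EInv h X) :
    ∏ ω ∈ X, c (g * h) ω = (∏ ω ∈ X, c g ω) * ∏ ω ∈ X, c h ω := by
  rw [← prod_smul hh (fun ω => c g ω), ← Finset.prod_mul_distrib]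
  exact Finset.prod_congr rfl (fun ω _ => hc g h ω)

/-- twisting: if `u * g = g * v` and `X` is `v`-invariant then
`∏_{ω ∈ X} c u (g • ω) = ∏_{ω ∈ X} c v ω`. -/
theorem prod_twist {c : G → Ω → A} (hc : IsCoc c) {u g v : G} (huv : u * g = g * v)
    {X : Finset Ω} (hv : EInv v X) :
    ∏ ω ∈ X, c u (g • ω) = ∏ ω ∈ X, c v ω := by
  have h1 : ∀ ω, c u (g • ω) * c g ω = c g (v • ω) * c v ω := by
    intro ω
    rw [← hc, ← hc, huv]
  have h2 : (∏ ω ∈ X, c u (g • ω)) * ∏ ω ∈ X, c g ω =
      (∏ ω ∈ X, c g ω) * ∏ ω ∈ X, c v ω := by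
    rw [← Finset.prod_mul_distrib, Finset.prod_congr rfl (fun ω _ => h1 ω),
      Finset.prod_mul_distrib, prod_smul hv (fun ω => c g ω)]
  rw [mul_comm] at h2
  exact mul_left_cancel h2

theorem coc_pow {c : G → Ω → A} (hc : IsCoc c) (g : G) (ω : Ω) (k : ℕ) :
    ∏ i ∈ Finset.range k, c g (g ^ i • ω) = c (g ^ k) ω := by
  induction k with
  | zero => rw [Finset.prod_range_zero, pow_zero, coc_one hc]
  | succ k ih => rw [Finset.prod_range_succ, ih, pow_succ', hc, mul_comm]

/-- If every "return value" `c (u^k) ω` (`u^k ω = ω`, `k > 0`) is trivial on the `u`-invariant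
set `X`, then `∏_{ω ∈ X} c u ω = 1`. -/
theorem prod_eq_one_of_return {c : G → Ω → A} (hc : IsCoc c) {u : G} (hu : IsOfFinOrder u) :
    ∀ (X : Finset Ω), EInv u X →
      (∀ ω ∈ X, ∀ k : ℕ, 0 < k → u ^ k • ω = ω → c (u ^ k) ω = 1) →
      ∏ ω ∈ X, c u ω = 1 := by
  intro X
  induction hn : X.card using Nat.strong_induction_on generalizing X with
  | _ n ih =>
    intro hX hret
    rcases X.eq_empty_or_nonempty with hemp | ⟨ω, hω⟩
    · rw [hemp, Finset.prod_empty]
    · have hex : ∃ k : ℕ, 0 < k ∧ u ^ k • ω = ω :=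
        ⟨orderOf u, hu.orderOf_pos, by rw [pow_orderOf_eq_one, one_smul]⟩
      classical
      let k := Nat.find hex
      have hk : 0 < k ∧ u ^ k • ω = ω := Nat.find_spec hex
      have hmin : ∀ j, 0 < j → j < k → u ^ j • ω ≠ ω := fun j hj hjk hfix =>
        Nat.find_min hex hjk ⟨hj, hfix⟩
      let O : Finset Ω := (Finset.range k).image (fun i => u ^ i • ω)
      have hinj : Set.InjOn (fun i => u ^ i • ω) (Finset.range k : Set ℕ) := by
        have key : ∀ i j, i < j → j < k → u ^ i • ω = u ^ j • ω → False := by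
          intro i j hij hjk h
          have h1 : u ^ (j - i) • ω = ω := by
            have h2 : u ^ j = u ^ i * u ^ (j - i) := by
              rw [← pow_add, Nat.add_sub_cancel' hij.le]
            rw [h2, mul_smul] at h
            exact (smul_left_cancel _ h).symm
          exact hmin (j - i) (by omega) (by omega) h1
        intro i hi j hj h
        simp only [Finset.coe_range, Set.mem_Iio] at hi hj
        rcases lt_trichotomy i j with hlt | heq | hgt
        · exact (key i j hlt hj h).elim
        · exact heq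
        · exact (key j i hgt hi h.symm).elim
      have hOX : O ⊆ X := by
        intro ω' hω'
        obtain ⟨i, _, rfl⟩ := Finset.mem_image.mp hω'
        exact ((hX.pow i) ω).mpr hω
      have hO : EInv u O := by
        intro ω'
        constructor
        · intro h
          obtain ⟨j, hj, hj'⟩ := Finset.mem_image.mp h
          have hj2 : j < k := Finset.mem_range.mp hj
          replace hj' : u ^ j • ω = u • ω' := hj'
          rcases Nat.eq_zero_or_pos j with h0 | hpos
          · subst h0
            rw [pow_zero, one_smul] at hj'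
            refine Finset.mem_image.mpr ⟨k - 1, Finset.mem_range.mpr (by omega), ?_⟩
            show u ^ (k - 1) • ω = ω'
            apply smul_left_cancel u
            rw [← hj', ← mul_smul, ← pow_succ', Nat.sub_add_cancel hk.1, hk.2]
          · refine Finset.mem_image.mpr ⟨j - 1, Finset.mem_range.mpr (by omega), ?_⟩
            show u ^ (j - 1) • ω = ω'
            apply smul_left_cancel u
            rw [← hj', ← mul_smul, ← pow_succ', Nat.sub_add_cancel hpos]
        · intro h
          obtain ⟨i, hi, rfl⟩ := Finset.mem_image.mp h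
          have hi2 : i < k := Finset.mem_range.mp hi
          rcases Nat.lt_or_ge (i + 1) k with hlt | hge
          · refine Finset.mem_image.mpr ⟨i + 1, Finset.mem_range.mpr hlt, ?_⟩
            show u ^ (i + 1) • ω = u • u ^ i • ω
            rw [pow_succ', mul_smul]
          · have hik : i + 1 = k := by omega
            refine Finset.mem_image.mpr ⟨0, Finset.mem_range.mpr hk.1, ?_⟩
            show u ^ 0 • ω = u • u ^ i • ω
            rw [pow_zero, one_smul, ← mul_smul, ← pow_succ', hik, hk.2]
      have hprodO : ∏ ω' ∈ O, c u ω' = 1 := by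
        rw [Finset.prod_image hinj, coc_pow hc]
        exact hret ω hω k hk.1 hk.2
      have hωO : ω ∈ O := Finset.mem_image.mpr ⟨0, Finset.mem_range.mpr hk.1, by
        show u ^ 0 • ω = ω
        rw [pow_zero, one_smul]⟩
      have hcard : (X \ O).card < n := by
        rw [← hn]
        apply Finset.card_lt_card
        refine ⟨Finset.sdiff_subset, fun h => ?_⟩
        have := h hω
        exact (Finset.mem_sdiff.mp this).2 hωO
      have h3 := ih _ hcard (X \ O) rfl (hX.sdiff hO)
        (fun ω' hω' => hret ω' (Finset.mem_sdiff.mp hω').1)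
      rw [← Finset.prod_sdiff hOX, h3, hprodO, one_mul]

end Cfsg.Agent.Lib.Helper34.Cocycle
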