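import Mathlib
import Cfsg.Agent.Lib.Helper74.DixStmt

/-!
# S4472 piece EXT (call of helper74): glue of ExtDet, ExtUniq, GalIrr, RatCrit

`ψ` from `ExtDet`.  For `j` prime to `|T|`, `j ≡ 1 (mod |K|)`: `g ↦ ψ (g ^ j)` is irreducible with
the same determinantal order (`GalIrr`) and agrees with `ψ` on `K` (`k ^ j = k`), so it is `ψ`
(`ExtUniq`); `RatCrit` with `r = |K|`, `|T| = |K| * p ^ m`.
-/

set_option autoImplicit false

universe u

namespace Cfsg.Agent.Lib.Helper34.DixEXT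

open Cfsg Cfsg.Agent.Lib.Helper74.DixStmt

theorem main (hD : ExtDet.{u}) (hU : ExtUniq.{u}) (hG : GalIrr.{u}) (hR : RatCrit.{u}) :
    ExtProp.{u} := by
  intro T _ _ p _ K hK hcop hidx θ hθ hinv
  obtain ⟨ψ, hψirr, hψθ, hψdet⟩ := hD p K hcop hidx θ hθ hinv
  obtain ⟨m, hm⟩ := hidx
  have hchar : IsCharacter T ψ := by
    obtain ⟨n, ρ, -, h⟩ := hψirr
    exact ⟨n, ρ, h⟩
  have hp : p.Prime := Fact.out
  have hpK : ¬ p ∣ Nat.card K := (Nat.Prime.coprime_iff_not_dvd hp).1 hcop.symm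
  have hcard : Nat.card T = Nat.card K * p ^ m := by
    rw [← hm]
    exact (Subgroup.card_mul_index K).symm
  have hres : IsIrrCharacter K (fun k : K => ψ k) := by
    have e : (fun k : K => ψ k) = θ := funext hψθ
    rw [e]
    exact hθ
  refine ⟨ψ, hchar, hψθ, hR p ψ hchar (Nat.card K) m hpK hcard ?_⟩
  intro j hj hjr g
  obtain ⟨hirr_j, hdet_j⟩ := hG ψ hψirr j hj
  have hK_eq : ∀ k : K, ψ k = ψ ((k : T) ^ j) := by
    intro k
    have h1 : k ^ j = k := by
      rw [← pow_mod_natCard, hjr, pow_mod_natCard, pow_one]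
    have h2 : (k : T) ^ j = k := by
      rw [← Subgroup.coe_pow, h1]
    rw [h2]
  have heq : ψ = fun g => ψ (g ^ j) :=
    hU p K hcop ⟨m, hm⟩ ψ (fun g => ψ (g ^ j)) hψirr hirr_j hres hK_eq hψdet
      (by rw [hdet_j]; exact hψdet)
  exact (congrFun heq g).symm

end Cfsg.Agent.Lib.Helper34.DixEXT
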