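import Mathlib
import Cfsg.Agent.Lib.Helper41.OFStmt

set_option autoImplicit false

namespace Cfsg.Agent.Lib.Helper34.OFLJ

open Matrix Polynomial
open Cfsg.Agent.Lib.Helper41.SpFStmt (Mat)
open Cfsg.Agent.Lib.Helper41.OFStmt

universe u

/-- the algebra map `F[X]/(f) → B` for a (possibly noncommutative) `F`-algebra `B` and `x : B`
killed by `f` -/
noncomputable def liftNC {F : Type u} [Field F] {B : Type u} [Ring B] [Algebra F B] (f : F[X])
    (x : B) (h : aeval x f = 0) : AdjoinRoot f →ₐ[F] B :=
  Ideal.Quotient.liftₐ (Ideal.span {f}) (aeval x) (by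
    intro a ha
    obtain ⟨c, rfl⟩ := Ideal.mem_span_singleton.1 ha
    rw [map_mul, h, zero_mul])

theorem liftNC_mk {F : Type u} [Field F] {B : Type u} [Ring B] [Algebra F B] (f : F[X])
    (x : B) (h : aeval x f = 0) (g : F[X]) : liftNC f x h (AdjoinRoot.mk f g) = aeval x g :=
  rfl

/-- [LJ] the quadratic extension `F(√l)` and its embeddings `a + b j₀ ↦ a + b J`. -/
theorem main : LJ.{u} := by
  intro F _ _ h2 l hl
  classical
  obtain ⟨f, hf⟩ : ∃ f : F[X], f = X ^ 2 - C l := ⟨_, rfl⟩
  have hfdeg : f.natDegree = 2 := by rw [hf]; exact natDegree_X_pow_sub_C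
  have hfm : f.Monic := by rw [hf]; exact monic_X_pow_sub_C l (by norm_num)
  have hirr : Irreducible f := by
    apply irreducible_of_degree_le_three_of_not_isRoot
    · rw [hfdeg]; decide
    · intro x hx
      rw [hf, IsRoot.def, eval_sub, eval_pow, eval_X, eval_C, sub_eq_zero] at hx
      exact hl ⟨x, by rw [← hx, pow_two]⟩
  have hfact : Fact (Irreducible f) := ⟨hirr⟩
  have hfinM : Module.Finite F (AdjoinRoot f) := (AdjoinRoot.powerBasis hirr.ne_zero).finite
  have hfin : Finite (AdjoinRoot f) := Module.finite_of_finite F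
  let hft : Fintype (AdjoinRoot f) := Fintype.ofFinite _
  have hcard : Fintype.card (AdjoinRoot f) = Fintype.card F ^ 2 := by
    rw [← Nat.card_eq_fintype_card, Module.natCard_eq_pow_finrank (K := F),
      (AdjoinRoot.powerBasis hirr.ne_zero).finrank, AdjoinRoot.powerBasis_dim,
      Nat.card_eq_fintype_card, hfdeg]
  have hroot : AdjoinRoot.root f * AdjoinRoot.root f = algebraMap F (AdjoinRoot f) l := by
    have h := AdjoinRoot.eval₂_root f
    rw [hf] at h
    simp only [eval₂_sub, eval₂_pow, eval₂_X, eval₂_C] at h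
    rw [sub_eq_zero] at h
    rw [← hf] at h
    rw [← pow_two, h]
    rfl
  have hl0 : l ≠ 0 := by
    rintro rfl
    exact hl ⟨0, by simp⟩
  refine ⟨AdjoinRoot f, inferInstance, hft, inferInstance, AdjoinRoot.root f, hroot, hcard,
    ?_, ?_, ?_, ?_⟩
  · intro h
    apply h2
    have h' : algebraMap F (AdjoinRoot f) 2 = 0 := by
      rw [map_ofNat]
      exact h
    exact (map_eq_zero (algebraMap F (AdjoinRoot f))).1 h'
  · by_cases hm : IsSquare (-1 : F)
    · obtain ⟨s, hs⟩ := hm
      exact ⟨algebraMap F _ s, by rw [← map_mul, ← hs, map_neg, map_one]⟩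
    · have h1 : quadraticChar F (-1) = -1 := quadraticChar_neg_one_iff_not_isSquare.2 hm
      have h2' : quadraticChar F l = -1 := quadraticChar_neg_one_iff_not_isSquare.2 hl
      have h3 : quadraticChar F (-l) = 1 := by
        have e : (-l) = (-1) * l := by ring
        rw [e, map_mul, h1, h2']
        norm_num
      obtain ⟨s, hs⟩ := (quadraticChar_one_iff_isSquare (neg_ne_zero.2 hl0)).1 h3
      refine ⟨algebraMap F _ (s / l) * AdjoinRoot.root f, ?_⟩
      have e1 : algebraMap F (AdjoinRoot f) (s / l) * AdjoinRoot.root f *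
          (algebraMap F (AdjoinRoot f) (s / l) * AdjoinRoot.root f)
          = algebraMap F (AdjoinRoot f) ((s / l) * (s / l) * l) := by
        rw [map_mul, map_mul, ← hroot]
        ring
      have e2 : (s / l) * (s / l) * l = -1 := by
        field_simp
        linear_combination -hs
      rw [e1, e2, map_neg, map_one]
  · have hdim : 0 < (AdjoinRoot.powerBasis hirr.ne_zero).dim := by
      rw [AdjoinRoot.powerBasis_dim, hfdeg]
      norm_num
    refine ⟨(AdjoinRoot.powerBasis hirr.ne_zero).basis.coord ⟨0, hdim⟩, ?_⟩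
    intro h
    have h' : ((AdjoinRoot.powerBasis hirr.ne_zero).basis.coord ⟨0, hdim⟩)
        ((AdjoinRoot.powerBasis hirr.ne_zero).basis ⟨0, hdim⟩) = 0 := by
      rw [h]
      rfl
    rw [Module.Basis.coord_apply, Module.Basis.repr_self, Finsupp.single_eq_same] at h'
    exact one_ne_zero h'
  · intro d hd J hJ
    have : Nonempty (Fin d ⊕ Fin d) := ⟨Sum.inl ⟨0, hd⟩⟩
    have haev : aeval J f = 0 := by
      rw [hf, map_sub, map_pow, aeval_X, aeval_C, pow_two, hJ, Algebra.algebraMap_eq_smul_one,
        sub_self]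
    refine ⟨liftNC f J haev, ?_, ?_, ?_⟩
    · exact (liftNC f J haev : AdjoinRoot f →+* Mat d F).injective
    · have e : AdjoinRoot.root f = AdjoinRoot.mk f X := rfl
      rw [e, liftNC_mk, aeval_X]
    · intro c
      obtain ⟨g, rfl⟩ := AdjoinRoot.mk_surjective c
      have hdiv := modByMonic_add_div g f
      have hdeg : (g %ₘ f).natDegree ≤ 1 := by
        have h := natDegree_modByMonic_lt g hfm (by
          intro h1
          rw [h1, natDegree_one] at hfdeg
          omega)
        omega
      have hr := eq_X_add_C_of_natDegree_le_one hdeg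
      refine ⟨(g %ₘ f).coeff 0, (g %ₘ f).coeff 1, ?_⟩
      rw [liftNC_mk]
      conv_lhs => rw [← hdiv]
      rw [map_add, map_mul, haev, zero_mul, add_zero]
      conv_lhs => rw [hr]
      rw [map_add, map_mul, aeval_C, aeval_C, aeval_X, Algebra.algebraMap_eq_smul_one,
        Algebra.algebraMap_eq_smul_one, smul_mul_assoc, one_mul, add_comm]

end Cfsg.Agent.Lib.Helper34.OFLJ
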