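import Mathlib
import Cfsg.Agent.Lib.Helper45.OMiStmt

/-!
# S5991 piece B2M (call by helper45)

If `CondM` fails and (`c ≤ m` or `(2d) % c < m`), the element of `Ω⁻` from DerEltM (fixed space
of dimension `k = (2d) % c`) fixes no member: for an invariant member `W`, DimObsM gives
`m % c = dim (W ⊓ Fix) ≤ k`, while `m % c` is odd and `k` is even, so `0 < m % c < k` and
`c ≤ m`, which is `CondM`.
-/

set_option autoImplicit false

namespace Cfsg.Agent.Lib.Helper34.OMiB2M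

open Cfsg.Agent.Lib.Helper37.HypStmt (cc IPos)
open Cfsg.Agent.Lib.Helper45.OMiStmt
open scoped Matrix

universe u

theorem cc_even (i : ℕ) : Even (cc i) := by
  unfold cc
  split_ifs with h
  · exact h
  · exact even_two_mul i

theorem cc_pos {i : ℕ} (h : 0 < i) : 0 < cc i := by
  unfold cc
  split_ifs <;> omega

theorem cc_of_even {i : ℕ} (h : Even i) : cc i = i := if_pos h

theorem mem_iso_of_mem_omega {F : Type u} [Field F] {d : ℕ} (a b : F)
    (x : Matrix.GeneralLinearGroup (M d) F)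
    (hx : x ∈ Cfsg.Geo.omegaGL (Cfsg.quadFormMinus (d - 1) F a b)) :
    x ∈ Cfsg.isometryGroup F (Cfsg.quadFormMinus (d - 1) F a b) := by
  unfold Cfsg.Geo.omegaGL at hx
  obtain ⟨y, -, hy⟩ := Subgroup.mem_map.1 hx
  rw [← hy]
  exact y.2

/-- [B2M] -/
theorem main (hIPos : IPos.{u}) (hDim : DimObsM.{u}) (hDer : DerEltM.{u}) : B2M.{u} := by
  intro F _ _ p _ _ hodd d m hd a b hAn hm hmd W₀ hW₀ hW₀N r _ hr2 hrp hH hnC
  have hi : 0 < orderOf ((Fintype.card F : ℕ) : ZMod r) := hIPos F p r hrp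
  obtain ⟨i, hidef⟩ : ∃ i, i = orderOf ((Fintype.card F : ℕ) : ZMod r) := ⟨_, rfl⟩
  rw [← hidef] at hi hH hnC
  have hnC' : ¬ ((Odd i ∧ ((2 * d) % cc i = 0 ∨
        (cc i ≤ m ∧ 0 < m % cc i ∧ m % cc i < (2 * d) % cc i))) ∨
      (Even i ∧ (((2 * d) % cc i = 0 ∧ Even ((2 * d) / i)) ∨
        (0 < (2 * d) % cc i ∧ i ≤ m ∧ 0 < m % cc i ∧ m % cc i < (2 * d) % cc i)))) := hnC
  have hcpos := cc_pos hi
  obtain ⟨c', hc'⟩ := cc_even i
  obtain ⟨m', hm'⟩ := hm
  have hc2 : cc i = 2 * c' := by omega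
  have hk : (2 * d) % cc i = 2 * (d % c') := by
    rw [hc2, Nat.mul_mod_mul_left]
  have hT : m = 2 * (c' * (m / cc i)) + m % cc i := by
    have h := Nat.div_add_mod m (cc i)
    have h2 : cc i * (m / cc i) = 2 * (c' * (m / cc i)) := by
      rw [hc2]; ring
    omega
  have hμlt : m % cc i < cc i := Nat.mod_lt _ hcpos
  have hklt : (2 * d) % cc i < cc i := Nat.mod_lt _ hcpos
  have hcn : cc i ≤ 2 * d := by
    by_contra hlt
    push Not at hlt
    rw [Nat.mod_eq_of_lt hlt] at hH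
    omega
  have hside : 0 < (2 * d) % cc i ∨ (Even i ∧ Odd (2 * d / i)) := by
    by_cases hk0 : 0 < (2 * d) % cc i
    · exact Or.inl hk0
    · rcases Nat.even_or_odd i with hie | hio
      · rcases Nat.even_or_odd (2 * d / i) with he | ho
        · exact absurd (Or.inr ⟨hie, Or.inl ⟨by omega, he⟩⟩) hnC'
        · exact Or.inr ⟨hie, ho⟩
      · exact absurd (Or.inl ⟨hio, Or.inl (by omega)⟩) hnC'
  obtain ⟨x, hxO, hxr, hxF⟩ := hDer F p hodd d (by omega) a b hAn r hr2 hrp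
    (by rw [← hidef]; exact hcn) (by rw [← hidef]; exact hside)
  rw [← hidef] at hxF
  refine ⟨x, hxO, hxr, ?_⟩
  intro W hWmem hWst
  obtain ⟨hWm, hWN, -⟩ := hWmem
  have hxI := mem_iso_of_mem_omega a b x hxO
  have hxpow : x ^ r = 1 := by
    rw [← hxr]
    exact pow_orderOf_eq_one x
  have hdvd := hDim F p hodd d (by omega) a b hAn r hr2 hrp x hxI hxpow W hWst hWN
  rw [← hidef] at hdvd
  have hf1 : Module.finrank F ↥(W ⊓ FxM (x : Matrix (M d) (M d) F)) ≤ Module.finrank F ↥W :=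
    Submodule.finrank_mono inf_le_left
  have hf2 : Module.finrank F ↥(W ⊓ FxM (x : Matrix (M d) (M d) F)) ≤
      Module.finrank F ↥(FxM (x : Matrix (M d) (M d) F)) :=
    Submodule.finrank_mono inf_le_right
  rw [hWm] at hdvd hf1
  rw [hxF] at hf2
  obtain ⟨f, hf⟩ : ∃ f, f = Module.finrank F ↥(W ⊓ FxM (x : Matrix (M d) (M d) F)) :=
    ⟨_, rfl⟩
  rw [← hf] at hdvd hf1 hf2
  obtain ⟨t, ht⟩ := hdvd
  have hmod : m % cc i = f := by
    have h1 : m = f + cc i * t := by omega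
    have h2 : (f + cc i * t) % cc i = f := by
      rw [Nat.add_mul_mod_self_left, Nat.mod_eq_of_lt (by omega)]
    rw [← h1] at h2
    exact h2
  have hcm : cc i ≤ m := by
    by_contra hlt
    push Not at hlt
    rw [Nat.mod_eq_of_lt hlt] at hmod
    omega
  apply hnC'
  rcases Nat.even_or_odd i with hie | hio
  · have hci := cc_of_even hie
    exact Or.inr ⟨hie, Or.inr ⟨by omega, by omega, by omega, by omega⟩⟩
  · exact Or.inl ⟨hio, Or.inr ⟨hcm, by omega, by omega⟩⟩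

end Cfsg.Agent.Lib.Helper34.OMiB2M
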