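import Mathlib
import Cfsg.Agent.Lib.Helper98.PSpStmt

/-! # S3421 piece CENT (helper34): centralisers respect the three classes `p`, `m₁`, `m₂` -/

set_option autoImplicit false

namespace Cfsg.Agent.Lib.Helper34.PSpCENT

open Cfsg.Agent.Lib.Helper98 Cfsg.Agent.Lib.Helper98.PSpStmt

universe u

variable {G : Type u} [Group G] {p q m₁ m₂ : ℕ}

/-- a prime divides at most one of `p`, `m₁`, `m₂` -/
theorem cls (h : Hyp G p q m₁ m₂) {r : ℕ} (hr : r.Prime) {D₁ D₂ : ℕ}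
    (h1 : D₁ = p ∨ D₁ = m₁ ∨ D₁ = m₂) (h2 : D₂ = p ∨ D₂ = m₁ ∨ D₂ = m₂)
    (hr1 : r ∣ D₁) (hr2 : r ∣ D₂) : D₁ = D₂ := by
  have hp1 : r ∣ p → r ∣ m₁ → False := fun a b => by
    have : r = p := (Nat.prime_dvd_prime_iff_eq hr h.pp).1 a
    subst this; exact h.p_not_dvd1 b
  have hp2 : r ∣ p → r ∣ m₂ → False := fun a b => by
    have : r = p := (Nat.prime_dvd_prime_iff_eq hr h.pp).1 a
    subst this; exact h.p_not_dvd2 b
  have h12 : r ∣ m₁ → r ∣ m₂ → False := fun a b => by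
    have h3 := Nat.dvd_gcd a b
    rw [h.coprime12.gcd_eq_one] at h3
    exact hr.one_lt.ne' (Nat.dvd_one.1 h3)
  rcases h1 with rfl | rfl | rfl <;> rcases h2 with rfl | rfl | rfl
  · rfl
  · exact (hp1 hr1 hr2).elim
  · exact (hp2 hr1 hr2).elim
  · exact (hp1 hr2 hr1).elim
  · rfl
  · exact (h12 hr1 hr2).elim
  · exact (hp2 hr2 hr1).elim
  · exact (h12 hr2 hr1).elim
  · rfl

/-- commuting non-identity elements lie in the same class -/
theorem comm_class (h : Hyp G p q m₁ m₂) {x c : G} (hcomm : Commute c x) (hx : x ≠ 1)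
    (hc : c ≠ 1) {D₁ D₂ : ℕ} (h1 : D₁ = p ∨ D₁ = m₁ ∨ D₁ = m₂)
    (h2 : D₂ = p ∨ D₂ = m₁ ∨ D₂ = m₂) (hx1 : orderOf x ∣ D₁) (hc2 : orderOf c ∣ D₂) :
    D₁ = D₂ := by
  have := h.fin
  have hox : orderOf x ≠ 1 := fun e => hx (orderOf_eq_one_iff.1 e)
  have hoc : orderOf c ≠ 1 := fun e => hc (orderOf_eq_one_iff.1 e)
  have hr : (orderOf x).minFac.Prime := Nat.minFac_prime hox
  have hs : (orderOf c).minFac.Prime := Nat.minFac_prime hoc
  have hrx : (orderOf x).minFac ∣ orderOf x := Nat.minFac_dvd _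
  have hsc : (orderOf c).minFac ∣ orderOf c := Nat.minFac_dvd _
  by_cases hrs : (orderOf x).minFac = (orderOf c).minFac
  · exact cls h hr h1 h2 (hrx.trans hx1) (hrs ▸ (hsc.trans hc2))
  · have ha : orderOf (x ^ (orderOf x / (orderOf x).minFac)) = (orderOf x).minFac :=
      orderOf_pow_orderOf_div (orderOf_pos x).ne' hrx
    have hb : orderOf (c ^ (orderOf c / (orderOf c).minFac)) = (orderOf c).minFac :=
      orderOf_pow_orderOf_div (orderOf_pos c).ne' hsc
    have hcomm' : Commute (c ^ (orderOf c / (orderOf c).minFac))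
        (x ^ (orderOf x / (orderOf x).minFac)) := hcomm.pow_pow _ _
    have hcop : (orderOf (c ^ (orderOf c / (orderOf c).minFac))).Coprime
        (orderOf (x ^ (orderOf x / (orderOf x).minFac))) := by
      rw [ha, hb]
      exact (Nat.coprime_primes hs hr).2 (fun e => hrs e.symm)
    have ho := hcomm'.orderOf_mul_eq_mul_orderOf_of_coprime hcop
    rw [ha, hb] at ho
    have hspec := h.spec (c ^ (orderOf c / (orderOf c).minFac) *
      x ^ (orderOf x / (orderOf x).minFac))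
    rw [ho] at hspec
    have key : ∀ D₃, (D₃ = p ∨ D₃ = m₁ ∨ D₃ = m₂) →
        (orderOf c).minFac * (orderOf x).minFac ∣ D₃ → D₁ = D₂ := by
      intro D₃ h3 hd
      have e1 : D₁ = D₃ := cls h hr h1 h3 (hrx.trans hx1) ((Dvd.intro_left _ rfl).trans hd)
      have e2 : D₂ = D₃ := cls h hs h2 h3 (hsc.trans hc2) ((Dvd.intro _ rfl).trans hd)
      rw [e1, e2]
    rcases hspec with hd | hd | hd
    · exact key p (Or.inl rfl) hd
    · exact key m₁ (Or.inr (Or.inl rfl)) hd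
    · exact key m₂ (Or.inr (Or.inr rfl)) hd

theorem class_of (h : Hyp G p q m₁ m₂) (c : G) :
    ∃ D, (D = p ∨ D = m₁ ∨ D = m₂) ∧ orderOf c ∣ D := by
  rcases h.spec c with hd | hd | hd
  · exact ⟨p, Or.inl rfl, hd⟩
  · exact ⟨m₁, Or.inr (Or.inl rfl), hd⟩
  · exact ⟨m₂, Or.inr (Or.inr rfl), hd⟩

theorem centP : PSpStmt.CentP.{u} := by
  intro G _ p q m₁ m₂ h x c hx hcomm
  by_cases hc : c = 1
  · rw [hc, one_pow]
  · have hx1 : x ≠ 1 := by
      intro e
      rw [e, orderOf_one] at hx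
      exact h.pp.one_lt.ne hx
    obtain ⟨D, hD, hcD⟩ := class_of h c
    have e := comm_class h hcomm hx1 hc (Or.inl rfl) hD (hx ▸ dvd_rfl) hcD
    rw [← e] at hcD
    exact orderOf_dvd_iff_pow_eq_one.1 hcD

theorem cent1 : PSpStmt.Cent1.{u} := by
  intro G _ p q m₁ m₂ h x c hx hxm hcomm
  by_cases hc : c = 1
  · rw [hc, one_pow]
  · obtain ⟨D, hD, hcD⟩ := class_of h c
    have e := comm_class h hcomm hx hc (Or.inr (Or.inl rfl)) hD
      (orderOf_dvd_of_pow_eq_one hxm) hcD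
    rw [← e] at hcD
    exact orderOf_dvd_iff_pow_eq_one.1 hcD

theorem cent2 : PSpStmt.Cent2.{u} := by
  intro G _ p q m₁ m₂ h x c hx hxm hcomm
  by_cases hc : c = 1
  · rw [hc, one_pow]
  · obtain ⟨D, hD, hcD⟩ := class_of h c
    have e := comm_class h hcomm hx hc (Or.inr (Or.inr rfl)) hD
      (orderOf_dvd_of_pow_eq_one hxm) hcD
    rw [← e] at hcD
    exact orderOf_dvd_iff_pow_eq_one.1 hcD

theorem expP : PSpStmt.ExpP.{u} := by
  intro G _ p q m₁ m₂ h P hP g hg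
  obtain ⟨k, hk⟩ := hP ⟨g, hg⟩
  have hk' : g ^ p ^ k = 1 := by
    have := congrArg Subtype.val hk
    simpa using this
  obtain ⟨j, hj, hoj⟩ := (Nat.dvd_prime_pow h.pp).1 (orderOf_dvd_of_pow_eq_one hk')
  have hj0 : ∀ D, orderOf g ∣ D → ¬ p ∣ D → g ^ p = 1 := by
    intro D hD hpD
    have : j = 0 := by
      by_contra hj0
      apply hpD
      have : p ∣ p ^ j := dvd_pow_self p hj0
      exact (hoj ▸ this).trans hD
    rw [this, pow_zero] at hoj
    rw [orderOf_eq_one_iff.1 hoj, one_pow]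
  rcases h.spec g with hd | hd | hd
  · exact orderOf_dvd_iff_pow_eq_one.1 hd
  · exact hj0 m₁ hd h.p_not_dvd1
  · exact hj0 m₂ hd h.p_not_dvd2

end Cfsg.Agent.Lib.Helper34.PSpCENT
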