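import Mathlib
import Cfsg.Agent.Lib.Helper98.PSpStmt

/-! # S3421 piece CYCINV (helper34): the involution of a cyclic group of even order -/

set_option autoImplicit false

namespace Cfsg.Agent.Lib.Helper34.PSpCYCINV

open Cfsg.Agent.Lib.Helper98

universe u

theorem main : PSpStmt.CycInv.{u} := by
  intro G _ x b n hn heven hx hb hb2 hb1
  have hfin : IsOfFinOrder x := by
    rw [← orderOf_pos_iff, hx]; exact hn
  obtain ⟨k, rfl⟩ := (Submonoid.mem_powers_iff _ _).1 ((hfin.mem_powers_iff_mem_zpowers).2 hb)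
  have hk : x ^ k = x ^ (k % n) := by rw [← hx, pow_mod_orderOf]
  rw [hk] at hb2 hb1 ⊢
  have hlt : k % n < n := Nat.mod_lt _ hn
  have hdvd : n ∣ (k % n) * 2 := by
    have h0 : orderOf x ∣ (k % n) * 2 := by
      apply orderOf_dvd_of_pow_eq_one
      rw [pow_mul]; exact hb2
    rwa [hx] at h0
  obtain ⟨m, hm⟩ := hdvd
  obtain ⟨e, he⟩ := heven
  have hm2 : m = 0 ∨ m = 1 := by
    rcases Nat.lt_or_ge m 2 with h | h
    · omega
    · exfalso
      have : n * 2 ≤ n * m := Nat.mul_le_mul_left n h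
      omega
  rcases hm2 with rfl | rfl
  · exfalso
    apply hb1
    have : k % n = 0 := by omega
    rw [this, pow_zero]
  · have : k % n = n / 2 := by omega
    rw [this]

end Cfsg.Agent.Lib.Helper34.PSpCYCINV
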