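import Mathlib
import Cfsg.Agent.Lib.Helper98.PSpStmt

/-! # S3421 piece IDX2 (helper34): a cyclic subgroup of index 2 is normal, its involution central -/

set_option autoImplicit false

namespace Cfsg.Agent.Lib.Helper34.PSpIDX2

open Cfsg.Agent.Lib.Helper98

universe u

theorem main (hCI : PSpStmt.CycInv.{u}) : PSpStmt.Idx2.{u} := by
  intro G _ _ x K n hn heven hx hxK hK
  have hle : Subgroup.zpowers x ≤ K := Subgroup.zpowers_le.2 hxK
  have hcardB : Nat.card ((Subgroup.zpowers x).subgroupOf K) = n := by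
    rw [Nat.card_congr (Subgroup.subgroupOfEquivOfLe hle).toEquiv, Nat.card_zpowers, hx]
  have hidx : ((Subgroup.zpowers x).subgroupOf K).index = 2 := by
    have h1 := Subgroup.card_mul_index ((Subgroup.zpowers x).subgroupOf K)
    rw [hcardB, hK] at h1
    have h2 : n * ((Subgroup.zpowers x).subgroupOf K).index = n * 2 := by rw [h1]; ring
    exact Nat.eq_of_mul_eq_mul_left hn h2
  have hnormal : ((Subgroup.zpowers x).subgroupOf K).Normal := Subgroup.normal_of_index_eq_two hidx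
  have hconj : ∀ g ∈ K, g * x * g⁻¹ ∈ Subgroup.zpowers x := by
    intro g hg
    have hxB : (⟨x, hxK⟩ : K) ∈ (Subgroup.zpowers x).subgroupOf K := by
      rw [Subgroup.mem_subgroupOf]; exact Subgroup.mem_zpowers x
    have h1 := hnormal.conj_mem _ hxB ⟨g, hg⟩
    rw [Subgroup.mem_subgroupOf] at h1
    exact h1
  refine ⟨hconj, ?_⟩
  intro g hg
  obtain ⟨e, he⟩ := heven
  have hn2 : n / 2 * 2 = n := by omega
  have hb : g * x ^ (n / 2) * g⁻¹ ∈ Subgroup.zpowers x := by
    rw [← conj_pow]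
    exact pow_mem (hconj g hg) _
  have hb2 : (g * x ^ (n / 2) * g⁻¹) ^ 2 = 1 := by
    rw [conj_pow, ← pow_mul, hn2, ← hx, pow_orderOf_eq_one]
    group
  have hb1 : g * x ^ (n / 2) * g⁻¹ ≠ 1 := by
    intro h
    have h1 : x ^ (n / 2) = 1 := by
      have h2 : x ^ (n / 2) = g⁻¹ * (g * x ^ (n / 2) * g⁻¹) * g := by group
      rw [h2, h]; group
    have h3 : n ∣ n / 2 := by
      have h30 : orderOf x ∣ n / 2 := orderOf_dvd_of_pow_eq_one h1
      rwa [hx] at h30
    have h4 : n ≤ n / 2 := Nat.le_of_dvd (by omega) h3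
    omega
  have h5 := hCI G x _ n hn ⟨e, he⟩ hx hb hb2 hb1
  calc g * x ^ (n / 2) = g * x ^ (n / 2) * g⁻¹ * g := by group
    _ = x ^ (n / 2) * g := by rw [h5]

end Cfsg.Agent.Lib.Helper34.PSpIDX2
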