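import Mathlib

set_option autoImplicit false

namespace Cfsg.Agent.Lib.Helper34.PolyP

open Polynomial

theorem poly_id (p : ℕ) [hp : Fact p.Prime] :
    ((X : (ZMod p)[X]) - 1) ^ (p - 1) = ∑ i ∈ Finset.range p, X ^ i := by
  have hX : (X : (ZMod p)[X]) - 1 ≠ 0 := by
    have := X_sub_C_ne_zero (1 : ZMod p)
    simpa using this
  apply mul_left_cancel₀ hX
  rw [← pow_succ', Nat.sub_add_cancel hp.out.one_le, mul_geom_sum, sub_pow_char, one_pow]

theorem end_id (p : ℕ) [hp : Fact p.Prime] {E : Type*} [Ring E] [Algebra (ZMod p) E] (T : E) :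
    (T - 1) ^ (p - 1) = ∑ i ∈ Finset.range p, T ^ i := by
  have h := congrArg (aeval T) (poly_id p)
  simpa using h

/-- additive form: for an additive character `f : M → ZMod p` and an endomorphism `κ`,
`∑_{i<p} f (κ^i u) = f ([u, κ; p-1])`. -/
theorem sum_iter_eq {M : Type*} [Group M] {p : ℕ} [hp : Fact p.Prime]
    (κ : M →* M) (f : M → ZMod p) (hf : ∀ x y, f (x * y) = f x + f y) (u : M) :
    ∑ i ∈ Finset.range p, f (κ^[i] u) = f ((fun y => y⁻¹ * κ y)^[p - 1] u) := by
  have hfinv : ∀ (g : M → ZMod p), (∀ x y, g (x * y) = g x + g y) → ∀ x, g x⁻¹ = - g x := by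
    intro g hg x
    have h1 : g 1 = 0 := by
      have := hg 1 1
      rw [mul_one] at this
      exact left_eq_add.mp this
    have h2 := hg x⁻¹ x
    rw [inv_mul_cancel, h1] at h2
    exact eq_neg_of_add_eq_zero_left h2.symm
  let T : Module.End (ZMod p) (M → ZMod p) := LinearMap.funLeft (ZMod p) (ZMod p) κ
  have hT : ∀ (g : M → ZMod p) (m : M), T g m = g (κ m) := fun g m => rfl
  have hTpow : ∀ (i : ℕ) (g : M → ZMod p) (m : M), (T ^ i) g m = g (κ^[i] m) := by
    intro i
    induction i with
    | zero => intro g m; simp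
    | succ i ih =>
      intro g m
      rw [pow_succ', Module.End.mul_apply, hT, ih, Function.iterate_succ_apply]
  have hTadd : ∀ (g : M → ZMod p), (∀ x y, g (x * y) = g x + g y) →
      ∀ x y, (T - 1) g (x * y) = (T - 1) g x + (T - 1) g y := by
    intro g hg x y
    simp only [LinearMap.sub_apply, Module.End.one_apply, Pi.sub_apply, hT, map_mul, hg]
    ring
  have hT1 : ∀ (j : ℕ) (g : M → ZMod p), (∀ x y, g (x * y) = g x + g y) → ∀ m : M,
      ((T - 1) ^ j) g m = g ((fun y => y⁻¹ * κ y)^[j] m) := by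
    intro j
    induction j with
    | zero => intro g _ m; simp
    | succ j ih =>
      intro g hg m
      rw [pow_succ, Module.End.mul_apply, ih _ (hTadd g hg), Function.iterate_succ_apply']
      simp only [LinearMap.sub_apply, Module.End.one_apply, Pi.sub_apply, hT]
      rw [hg, hfinv g hg]
      ring
  have h := end_id p T
  have h2 := congrFun (congrArg (fun L : Module.End (ZMod p) (M → ZMod p) => L f) h) u
  rw [hT1 _ f hf, LinearMap.sum_apply, Finset.sum_apply] at h2
  rw [h2]
  exact Finset.sum_congr rfl (fun i _ => (hTpow i f u).symm)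

end Cfsg.Agent.Lib.Helper34.PolyP
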