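import Mathlib
import Cfsg.Agent.Lib.Helper46.PsuStmt
import Cfsg.Agent.Lib.Helper46.PsuROOTS

set_option autoImplicit false

/-!
# Piece CW of S5172: the centralizer of `QW` in `GJ` is `scalars * QW`

Also the shared lemmas for piece CR (`PsuCR`).
-/

namespace Cfsg.Agent.Lib.Helper34.PsuCW

open Matrix Cfsg.Agent.Lib.Helper43.SUBase Cfsg.Agent.H84.PslDefs
  Cfsg.Agent.Lib.Helper46.PsuDefs Cfsg.Agent.Lib.Helper46.PsuStmt

universe u

variable {K : Type u} [Field K] {q : ℕ} (D : QD K q) {n : ℕ}

/-- commuting with `1 + N` -/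
theorem comm_N {g x : SpecialLinearGroup (Fin n) K} {N : Matrix (Fin n) (Fin n) K}
    (hx : (x : Matrix (Fin n) (Fin n) K) = 1 + N) (h : g * x = x * g) :
    (g : Matrix (Fin n) (Fin n) K) * N = N * (g : Matrix (Fin n) (Fin n) K) := by
  have h1 : ((g * x : SpecialLinearGroup (Fin n) K) : Matrix (Fin n) (Fin n) K) =
      ((x * g : SpecialLinearGroup (Fin n) K) : Matrix (Fin n) (Fin n) K) := by rw [h]
  rw [Matrix.SpecialLinearGroup.coe_mul, Matrix.SpecialLinearGroup.coe_mul, hx, Matrix.mul_add,
    Matrix.add_mul, Matrix.mul_one, Matrix.one_mul] at h1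
  exact add_left_cancel h1

/-- consequences of commuting with a long root element -/
theorem long_facts {g : SpecialLinearGroup (Fin n) K} {i : Fin n} {c : K} (hc : c ≠ 0)
    (h : (g : Matrix (Fin n) (Fin n) K) * Matrix.single i (Fin.rev i) c =
      Matrix.single i (Fin.rev i) c * (g : Matrix (Fin n) (Fin n) K)) :
    (∀ k, k ≠ i → g k i = 0) ∧ (∀ l, l ≠ Fin.rev i → g (Fin.rev i) l = 0) ∧
      g i i = g (Fin.rev i) (Fin.rev i) := by
  refine ⟨?_, ?_, ?_⟩
  · intro k hk
    have h1 := congrFun (congrFun h k) (Fin.rev i)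
    rw [Matrix.mul_single_apply_same, Matrix.single_mul_apply_of_ne _ _ _ _ _ hk] at h1
    exact (mul_eq_zero.mp h1).resolve_right hc
  · intro l hl
    have h1 := congrFun (congrFun h i) l
    rw [Matrix.mul_single_apply_of_ne _ _ _ _ _ hl, Matrix.single_mul_apply_same] at h1
    exact (mul_eq_zero.mp h1.symm).resolve_left hc
  · have h1 := congrFun (congrFun h i) (Fin.rev i)
    rw [Matrix.mul_single_apply_same, Matrix.single_mul_apply_same] at h1
    exact mul_right_cancel₀ hc (by rw [h1, mul_comm])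

/-- consequences of commuting with a short root element -/
theorem short_row {g : SpecialLinearGroup (Fin n) K} {i j : Fin n} (h2 : i ≠ Fin.rev j) (b : K)
    (h : (g : Matrix (Fin n) (Fin n) K) *
        (Matrix.single i j 1 - Matrix.single (Fin.rev j) (Fin.rev i) b) =
      (Matrix.single i j 1 - Matrix.single (Fin.rev j) (Fin.rev i) b) *
        (g : Matrix (Fin n) (Fin n) K))
    (l : Fin n) (hl : l ≠ Fin.rev i) : g j l = if l = j then g i i else 0 := by
  have h1 := congrFun (congrFun h i) l
  rw [Matrix.mul_sub, Matrix.sub_mul, Matrix.sub_apply, Matrix.sub_apply,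
    Matrix.mul_single_apply_of_ne _ _ _ _ _ hl, Matrix.single_mul_apply_same,
    Matrix.single_mul_apply_of_ne _ _ _ _ _ h2] at h1
  by_cases hlj : l = j
  · subst hlj
    rw [Matrix.mul_single_apply_same] at h1
    rw [if_pos rfl]
    simpa using h1.symm
  · rw [Matrix.mul_single_apply_of_ne _ _ _ _ _ hlj] at h1
    rw [if_neg hlj]
    simpa using h1.symm

/-- consequences of commuting with a root element through the middle index -/
theorem mid_row {g : SpecialLinearGroup (Fin n) K} {i j : Fin n} (hij : i ≠ j) (a b : K)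
    (h : (g : Matrix (Fin n) (Fin n) K) *
        (Matrix.single i j 1 - Matrix.single j (Fin.rev i) a + Matrix.single i (Fin.rev i) b) =
      (Matrix.single i j 1 - Matrix.single j (Fin.rev i) a + Matrix.single i (Fin.rev i) b) *
        (g : Matrix (Fin n) (Fin n) K))
    (hrow : ∀ l, l ≠ Fin.rev i → g (Fin.rev i) l = 0)
    (l : Fin n) (hl : l ≠ Fin.rev i) : g j l = if l = j then g i i else 0 := by
  have h1 := congrFun (congrFun h i) l
  rw [Matrix.mul_add, Matrix.add_mul, Matrix.mul_sub, Matrix.sub_mul, Matrix.add_apply,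
    Matrix.add_apply, Matrix.sub_apply, Matrix.sub_apply,
    Matrix.mul_single_apply_of_ne _ _ _ _ _ hl, Matrix.mul_single_apply_of_ne _ _ _ _ _ hl,
    Matrix.single_mul_apply_same, Matrix.single_mul_apply_same,
    Matrix.single_mul_apply_of_ne _ _ _ _ _ hij, hrow l hl] at h1
  by_cases hlj : l = j
  · subst hlj
    rw [Matrix.mul_single_apply_same] at h1
    rw [if_pos rfl]
    simpa using h1.symm
  · rw [Matrix.mul_single_apply_of_ne _ _ _ _ _ hlj] at h1
    rw [if_neg hlj]
    simpa using h1.symm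

theorem longM_eq (i : Fin n) (c : K) : longM n i c = 1 + Matrix.single i (Fin.rev i) c := rfl

theorem shortM_eq (i j : Fin n) (a : K) :
    shortM D n i j a = 1 + (Matrix.single i j a - Matrix.single (Fin.rev j) (Fin.rev i) (D.φ a)) := by
  rw [shortM, add_sub_assoc]

theorem midM_eq (i j : Fin n) (a b : K) :
    midM D n i j a b = 1 + (Matrix.single i j a - Matrix.single j (Fin.rev i) (D.φ a) +
      Matrix.single i (Fin.rev i) b) := by
  rw [midM, add_sub_assoc, add_assoc]

theorem single_zero {i j k l : Fin n} (a : K) (h : ¬ (k = i ∧ l = j)) :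
    Matrix.single i j a k l = 0 :=
  Matrix.single_apply_of_ne i j a k l (fun hh : i = k ∧ j = l => h ⟨hh.1.symm, hh.2.symm⟩)

/-- support of a long root element -/
theorem longM_supp (i : Fin n) (c : K) (k l : Fin n) (hkl : k ≠ l) (h : longM n i c k l ≠ 0) :
    k = i ∧ l = Fin.rev i := by
  by_contra hcon
  apply h
  have e1 : Matrix.single i (Fin.rev i) c k l = 0 := single_zero c hcon
  show (1 + Matrix.single i (Fin.rev i) c : Matrix (Fin n) (Fin n) K) k l = 0
  rw [Matrix.add_apply, Matrix.one_apply_ne hkl, zero_add, e1]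

/-- support of a short root element -/
theorem shortM_supp (i j : Fin n) (a : K) (k l : Fin n) (hkl : k ≠ l)
    (h : shortM D n i j a k l ≠ 0) :
    (k = i ∧ l = j) ∨ (k = Fin.rev j ∧ l = Fin.rev i) := by
  by_contra hcon
  push Not at hcon
  apply h
  have e1 : Matrix.single i j a k l = 0 := single_zero a (fun hh => hcon.1 hh.1 hh.2)
  have e2 : Matrix.single (Fin.rev j) (Fin.rev i) (D.φ a) k l = 0 :=
    single_zero _ (fun hh => hcon.2 hh.1 hh.2)
  show (1 + Matrix.single i j a - Matrix.single (Fin.rev j) (Fin.rev i) (D.φ a) :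
    Matrix (Fin n) (Fin n) K) k l = 0
  rw [Matrix.sub_apply, Matrix.add_apply, Matrix.one_apply_ne hkl, zero_add, e1, e2, sub_zero]

/-- support of a middle root element -/
theorem midM_supp (i j : Fin n) (a b : K) (k l : Fin n) (hkl : k ≠ l)
    (h : midM D n i j a b k l ≠ 0) :
    (k = i ∧ l = j) ∨ (k = j ∧ l = Fin.rev i) ∨ (k = i ∧ l = Fin.rev i) := by
  by_contra hcon
  push Not at hcon
  apply h
  have e1 : Matrix.single i j a k l = 0 := single_zero a (fun hh => hcon.1 hh.1 hh.2)
  have e2 : Matrix.single j (Fin.rev i) (D.φ a) k l = 0 :=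
    single_zero _ (fun hh => hcon.2.1 hh.1 hh.2)
  have e3 : Matrix.single i (Fin.rev i) b k l = 0 := single_zero b (fun hh => hcon.2.2 hh.1 hh.2)
  show (1 + Matrix.single i j a - Matrix.single j (Fin.rev i) (D.φ a) +
    Matrix.single i (Fin.rev i) b : Matrix (Fin n) (Fin n) K) k l = 0
  rw [Matrix.add_apply, Matrix.sub_apply, Matrix.add_apply, Matrix.one_apply_ne hkl,
    zero_add, e1, e2, e3, sub_zero, zero_add]

/-- the scalar multiple `c⁻¹ g` as an element of `UJ` -/
theorem exists_r0 {g : SpecialLinearGroup (Fin n) K} (hg : g ∈ GJ D n) (i0 : Fin n)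
    (hcol : ∀ k, k ≠ i0 → g k i0 = 0) (hcorner : g i0 i0 = g (Fin.rev i0) (Fin.rev i0))
    (hdiag : ∀ i, g i i = g i0 i0) (hup : ∀ i j : Fin n, j < i → g i j = 0) :
    ∃ r0 ∈ UJ D n, ∀ i j : Fin n, r0 i j = (g i0 i0)⁻¹ * g i j ∧ g i j = g i0 i0 * r0 i j := by
  set c := g i0 i0 with hc
  have hcc : D.φ c * c = 1 := by
    have h1 := (mem_GJ_iff_entries D n g).1 hg i0 i0
    rw [if_pos rfl, Finset.sum_eq_single i0] at h1
    · rw [← hcorner] at h1
      exact h1
    · intro k _ hk
      rw [hcol k hk, mul_zero]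
    · intro h
      exact absurd (Finset.mem_univ i0) h
  have hc0 : c ≠ 0 := by
    intro h0
    rw [h0, mul_zero] at hcc
    exact zero_ne_one hcc
  have hU' : ∀ i j : Fin n, j < i → (c⁻¹ • (g : Matrix (Fin n) (Fin n) K)) i j = 0 := by
    intro i j hji
    simp only [Matrix.smul_apply, hup i j hji, smul_zero]
  have hd' : ∀ i : Fin n, (c⁻¹ • (g : Matrix (Fin n) (Fin n) K)) i i = 1 := by
    intro i
    rw [Matrix.smul_apply, hdiag i, smul_eq_mul, inv_mul_cancel₀ hc0]
  have hJ' : adjJ D n (c⁻¹ • (g : Matrix (Fin n) (Fin n) K)) *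
      (c⁻¹ • (g : Matrix (Fin n) (Fin n) K)) = 1 := by
    rw [adjJ_smul, Matrix.smul_mul, Matrix.mul_smul, smul_smul, (mem_GJ D n g).1 hg, map_inv₀,
      ← mul_inv, hcc, inv_one, one_smul]
  obtain ⟨r0, hr0, hr0M⟩ := Cfsg.Agent.Lib.Helper46.PsuROOTS.exists_of_matrix D
    (c⁻¹ • (g : Matrix (Fin n) (Fin n) K)) hU' hd' hJ'
  refine ⟨r0, hr0, fun i j => ?_⟩
  have h1 : r0 i j = c⁻¹ * g i j := by
    have := congrFun (congrFun hr0M i) j
    rw [this, Matrix.smul_apply, smul_eq_mul]
  refine ⟨h1, ?_⟩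
  rw [h1, ← mul_assoc, mul_inv_cancel₀ hc0, one_mul]

/-- membership in `QW` from the support -/
theorem mem_QW_of {x : SpecialLinearGroup (Fin n) K} (hx : x ∈ UJ D n)
    (hs : ∀ k l : Fin n, k ≠ l → x k l ≠ 0 →
      (k.val < n / 2 ∧ n / 2 ≤ l.val) ∨ (k.val < n - n / 2 ∧ n - n / 2 ≤ l.val)) :
    x ∈ QW D n := by
  rw [mem_QW]
  rw [mem_UJ] at hx
  refine ⟨hx.1, fun i j hne h1 h2 => ?_, hx.2.2⟩
  by_contra h0
  rcases hs i j hne h0 with h | h
  · exact h1 h
  · exact h2 h

theorem main : CentW.{u} := by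
  intro n K _ _ q D hn g hg hcomm
  set m := n / 2 with hm
  have hm2 : 2 ≤ m := by omega
  have hmn : 2 * m ≤ n := by omega
  have hnm : n ≤ 2 * m + 1 := by omega
  obtain ⟨z, hz0, hz⟩ := D.exists_skew
  obtain ⟨b, hb⟩ := D.tr (-1) (by rw [map_neg, map_one])
  -- long root elements
  have hL : ∀ i : Fin n, i.val < m → (∀ k, k ≠ i → g k i = 0) ∧
      (∀ l, l ≠ Fin.rev i → g (Fin.rev i) l = 0) ∧ g i i = g (Fin.rev i) (Fin.rev i) := by
    intro i hi
    have hrev : (Fin.rev i).val = n - (i.val + 1) := Fin.val_rev i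
    have hlt : i < Fin.rev i := by
      rw [Fin.lt_def, hrev]; omega
    obtain ⟨x, hxU, hxM⟩ := Cfsg.Agent.Lib.Helper46.PsuROOTS.long_exists D i z hlt hz
    have hxQ : x ∈ QW D n := by
      apply mem_QW_of D hxU
      intro k l hkl hne
      rw [hxM] at hne
      obtain ⟨rfl, rfl⟩ := longM_supp i z k l hkl hne
      left
      rw [hrev]
      omega
    exact long_facts hz0 (comm_N (hxM.trans (longM_eq i z)) (hcomm x hxQ))
  -- short root elements
  have hS : ∀ i k : Fin n, i.val < k.val → k.val < m → g i i = g k k := by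
    intro i k hik hk
    have hrevk : (Fin.rev k).val = n - (k.val + 1) := Fin.val_rev k
    have hrevi : (Fin.rev i).val = n - (i.val + 1) := Fin.val_rev i
    have h1 : i < Fin.rev k := by rw [Fin.lt_def, hrevk]; omega
    have h2 : Fin.rev k < Fin.rev i := by rw [Fin.lt_def, hrevk, hrevi]; omega
    have h3 : Fin.rev k ≠ Fin.rev (Fin.rev k) := by
      rw [Fin.rev_rev]
      intro h
      have := congrArg Fin.val h
      rw [hrevk] at this
      omega
    obtain ⟨x, hxU, hxM⟩ :=
      Cfsg.Agent.Lib.Helper46.PsuROOTS.short_exists D i (Fin.rev k) 1 h1 h2 h3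
    have hxQ : x ∈ QW D n := by
      apply mem_QW_of D hxU
      intro k' l hkl hne
      rw [hxM] at hne
      rcases shortM_supp D i (Fin.rev k) 1 k' l hkl hne with ⟨rfl, rfl⟩ | ⟨rfl, rfl⟩
      · left
        rw [hrevk]
        omega
      · right
        rw [Fin.rev_rev, hrevi]
        omega
    have h4 := short_row (g := g) (i := i) (j := Fin.rev k) (by rw [Fin.rev_rev]; exact ne_of_lt hik)
      (D.φ 1) (comm_N (hxM.trans (shortM_eq D i (Fin.rev k) 1)) (hcomm x hxQ)) (Fin.rev k)
      (ne_of_lt h2)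
    rw [if_pos rfl] at h4
    rw [(hL k hk).2.2, h4]
  let i0 : Fin n := ⟨0, by omega⟩
  have hi0 : i0.val = 0 := rfl
  have hrev0 : (Fin.rev i0).val = n - 1 := by rw [Fin.val_rev]
  -- the diagonal
  have hdiag : ∀ i : Fin n, g i i = g i0 i0 := by
    intro i
    by_cases h1 : i.val < m
    · by_cases h0 : i.val = 0
      · have : i = i0 := Fin.ext h0
        rw [this]
      · exact (hS i0 i (by rw [hi0]; omega) h1).symm
    · by_cases h2 : n - m ≤ i.val
      · have hrevi : (Fin.rev i).val = n - (i.val + 1) := Fin.val_rev i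
        have h3 : (Fin.rev i).val < m := by rw [hrevi]; have := i.isLt; omega
        have h4 := (hL (Fin.rev i) h3).2.2
        rw [Fin.rev_rev] at h4
        rw [← h4]
        by_cases h0 : (Fin.rev i).val = 0
        · have : Fin.rev i = i0 := Fin.ext h0
          rw [this]
        · exact (hS i0 (Fin.rev i) (by rw [hi0]; omega) h3).symm
      · -- the middle index
        have hi : i.val = m := by omega
        have hrevi : Fin.rev i = i := by
          apply Fin.ext
          rw [Fin.val_rev]
          omega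
        have h5 : i0 < i := by rw [Fin.lt_def, hi0]; omega
        obtain ⟨x, hxU, hxM⟩ := Cfsg.Agent.Lib.Helper46.PsuROOTS.mid_exists D i0 i 1 b h5
          hrevi.symm (by rw [hb, map_one]; ring)
        have hxQ : x ∈ QW D n := by
          apply mem_QW_of D hxU
          intro k' l hkl hne
          rw [hxM] at hne
          rcases midM_supp D i0 i 1 b k' l hkl hne with ⟨rfl, rfl⟩ | ⟨rfl, rfl⟩ | ⟨rfl, rfl⟩
          · left
            omega
          · right
            rw [hrev0]
            omega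
          · left
            rw [hrev0]
            omega
        have h6 := mid_row (g := g) (i := i0) (j := i) (ne_of_lt h5) (D.φ 1) b
          (comm_N (hxM.trans (midM_eq D i0 i 1 b)) (hcomm x hxQ))
          (hL i0 (by rw [hi0]; omega)).2.1 i (by
            intro h
            have := congrArg Fin.val h
            rw [hrev0] at this
            omega)
        rw [if_pos rfl] at h6
        exact h6
  -- the zero pattern
  have hzero : ∀ i j : Fin n, i ≠ j → ¬ (i.val < m ∧ m ≤ j.val) →
      ¬ (i.val < n - m ∧ n - m ≤ j.val) → g i j = 0 := by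
    intro i j hij h1 h2
    by_cases hj : j.val < m
    · exact (hL j hj).1 i hij
    · have hi : m ≤ i.val := by
        by_contra hi
        exact h1 ⟨by omega, by omega⟩
      by_cases hi2 : n - m ≤ i.val
      · have hrevi : (Fin.rev i).val = n - (i.val + 1) := Fin.val_rev i
        have h3 : (Fin.rev i).val < m := by rw [hrevi]; have := i.isLt; omega
        have h4 := (hL (Fin.rev i) h3).2.1 j (by rw [Fin.rev_rev]; exact fun h => hij h.symm)
        rwa [Fin.rev_rev] at h4
      · exfalso
        have hj2 : j.val < n - m := by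
          by_contra hj2
          exact h2 ⟨by omega, by omega⟩
        apply hij
        apply Fin.ext
        omega
  obtain ⟨r0, hr0, hr0e⟩ := exists_r0 D hg i0 (hL i0 (by rw [hi0]; omega)).1
    (hL i0 (by rw [hi0]; omega)).2.2 hdiag (fun i j hji => hzero i j (ne_of_gt hji)
      (by have : j.val < i.val := hji; omega) (by have : j.val < i.val := hji; omega))
  refine ⟨g i0 i0, r0, ?_, fun i j => (hr0e i j).2⟩
  rw [mem_QW]
  rw [mem_UJ] at hr0
  refine ⟨hr0.1, fun i j hne h1 h2 => ?_, hr0.2.2⟩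
  rw [(hr0e i j).1, hzero i j hne h1 h2, mul_zero]

end Cfsg.Agent.Lib.Helper34.PsuCW
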