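import Mathlib
import Cfsg.Agent.Lib.Helper46.PsuStmt
import Cfsg.Agent.Lib.Helper46.PsuROOTS
import Cfsg.Agent.Lib.Helper34.PsuCW

set_option autoImplicit false

/-!
# Piece CR of S5172: the centralizer of `RC` in `GJ` is `scalars * RC`
-/

namespace Cfsg.Agent.Lib.Helper34.PsuCR

open Matrix Cfsg.Agent.Lib.Helper43.SUBase Cfsg.Agent.H84.PslDefs
  Cfsg.Agent.Lib.Helper46.PsuDefs Cfsg.Agent.Lib.Helper46.PsuStmt
  Cfsg.Agent.Lib.Helper34.PsuCW

universe u

variable {K : Type u} [Field K] {q : ℕ} (D : QD K q) {n : ℕ}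

/-- membership in `RC` from the support: row `0` and column `n - 1` -/
theorem mem_RC_of (hn : 4 ≤ n) {x : SpecialLinearGroup (Fin n) K} (hx : x ∈ UJ D n)
    (hs : ∀ k l : Fin n, k ≠ l → x k l ≠ 0 → k.val = 0 ∨ l.val + 1 = n) :
    x ∈ RC D n := by
  rw [mem_RC]
  refine ⟨hx, fun i j hij hi hj => ?_⟩
  by_contra h0
  have hv : i.val < j.val := hij
  rcases hs i j (ne_of_lt hij) h0 with h | h
  · omega
  · omega

theorem main : CentC.{u} := by
  intro n K _ _ q D hn g hg hcomm
  obtain ⟨z, hz0, hz⟩ := D.exists_skew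
  obtain ⟨b, hb⟩ := D.tr (-1) (by rw [map_neg, map_one])
  let i0 : Fin n := ⟨0, by omega⟩
  have hi0 : i0.val = 0 := rfl
  have hrev0 : (Fin.rev i0).val = n - 1 := by rw [Fin.val_rev]
  have hlt0 : i0 < Fin.rev i0 := by rw [Fin.lt_def, hrev0, hi0]; omega
  -- the long root element
  have hL : (∀ k, k ≠ i0 → g k i0 = 0) ∧ (∀ l, l ≠ Fin.rev i0 → g (Fin.rev i0) l = 0) ∧
      g i0 i0 = g (Fin.rev i0) (Fin.rev i0) := by
    obtain ⟨x, hxU, hxM⟩ := Cfsg.Agent.Lib.Helper46.PsuROOTS.long_exists D i0 z hlt0 hz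
    have hxQ : x ∈ RC D n := by
      apply mem_RC_of D hn hxU
      intro k l hkl hne
      rw [hxM] at hne
      obtain ⟨rfl, rfl⟩ := longM_supp i0 z k l hkl hne
      left
      exact hi0
    exact long_facts hz0 (comm_N (hxM.trans (longM_eq i0 z)) (hcomm x hxQ))
  -- the rows `0 < j < n - 1`
  have hR : ∀ j : Fin n, 0 < j.val → j.val + 1 < n → ∀ l : Fin n, l ≠ Fin.rev i0 →
      g j l = if l = j then g i0 i0 else 0 := by
    intro j hj0 hj1 l hl
    have hrevj : (Fin.rev j).val = n - (j.val + 1) := Fin.val_rev j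
    have h1 : i0 < j := by rw [Fin.lt_def, hi0]; exact hj0
    have h2 : j < Fin.rev i0 := by rw [Fin.lt_def, hrev0]; omega
    by_cases hjj : j = Fin.rev j
    · obtain ⟨x, hxU, hxM⟩ := Cfsg.Agent.Lib.Helper46.PsuROOTS.mid_exists D i0 j 1 b h1 hjj
        (by rw [hb, map_one]; ring)
      have hxQ : x ∈ RC D n := by
        apply mem_RC_of D hn hxU
        intro k' l' hkl hne
        rw [hxM] at hne
        rcases midM_supp D i0 j 1 b k' l' hkl hne with ⟨rfl, rfl⟩ | ⟨rfl, rfl⟩ | ⟨rfl, rfl⟩
        · left; exact hi0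
        · right; rw [hrev0]; omega
        · left; exact hi0
      exact mid_row (g := g) (i := i0) (j := j) (ne_of_lt h1) (D.φ 1) b
        (comm_N (hxM.trans (midM_eq D i0 j 1 b)) (hcomm x hxQ)) hL.2.1 l hl
    · obtain ⟨x, hxU, hxM⟩ :=
        Cfsg.Agent.Lib.Helper46.PsuROOTS.short_exists D i0 j 1 h1 h2 hjj
      have hxQ : x ∈ RC D n := by
        apply mem_RC_of D hn hxU
        intro k' l' hkl hne
        rw [hxM] at hne
        rcases shortM_supp D i0 j 1 k' l' hkl hne with ⟨rfl, rfl⟩ | ⟨rfl, rfl⟩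
        · left; exact hi0
        · right; rw [hrev0]; omega
      exact short_row (g := g) (i := i0) (j := j) (by
          intro h
          have := congrArg Fin.val h
          rw [hrevj, hi0] at this
          omega) (D.φ 1)
        (comm_N (hxM.trans (shortM_eq D i0 j 1)) (hcomm x hxQ)) l hl
  -- the diagonal
  have hdiag : ∀ i : Fin n, g i i = g i0 i0 := by
    intro i
    by_cases h0 : i.val = 0
    · have : i = i0 := Fin.ext h0
      rw [this]
    · by_cases h1 : i.val + 1 = n
      · have : i = Fin.rev i0 := Fin.ext (by rw [hrev0]; omega)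
        rw [this, ← hL.2.2]
      · have h2 := hR i (by omega) (by have := i.isLt; omega) i (by
          intro h
          have := congrArg Fin.val h
          rw [hrev0] at this
          omega)
        rw [if_pos rfl] at h2
        exact h2
  -- the zero pattern
  have hzero : ∀ i j : Fin n, i ≠ j → i.val ≠ 0 → j.val + 1 ≠ n → g i j = 0 := by
    intro i j hij hi hj
    have hjr : j ≠ Fin.rev i0 := by
      intro h
      have := congrArg Fin.val h
      rw [hrev0] at this
      omega
    by_cases h1 : i.val + 1 = n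
    · have : i = Fin.rev i0 := Fin.ext (by rw [hrev0]; omega)
      rw [this]
      exact hL.2.1 j hjr
    · have h2 := hR i (by omega) (by have := i.isLt; omega) j hjr
      rw [if_neg (fun h => hij h.symm)] at h2
      exact h2
  obtain ⟨r0, hr0, hr0e⟩ := exists_r0 D hg i0 hL.1 hL.2.2 hdiag
    (fun i j hji => hzero i j (ne_of_gt hji)
      (by have : j.val < i.val := hji; omega)
      (by have : j.val < i.val := hji; have := i.isLt; omega))
  refine ⟨g i0 i0, r0, ?_, fun i j => (hr0e i j).2⟩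
  rw [mem_RC]
  refine ⟨hr0, fun i j hij hi hj => ?_⟩
  have hv : i.val < j.val := hij
  rw [(hr0e i j).1, hzero i j (ne_of_lt hij) (by omega) (by omega), mul_zero]

end Cfsg.Agent.Lib.Helper34.PsuCR
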