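import Mathlib
import Cfsg.Agent.Lib.Helper42.ReeAutStmt

set_option autoImplicit false

namespace Cfsg.Agent.Lib.Helper34.ReeAutGEOB

open Cfsg.Agent.Lib.Helper42.ReeSpStmt Cfsg.Agent.Lib.Helper42.ReeAutStmt

universe u v

/-- In a finite group, `g U g⁻¹ ⊆ U` means `g ∈ N(U)`. -/
theorem nu_iff {G : Type u} [Group G] [Finite G] (U : Subgroup G) (g : G) :
    NU U g ↔ g ∈ Subgroup.normalizer (U : Set G) := by
  constructor
  · intro h
    rw [Subgroup.mem_normalizer_iff]
    intro x
    constructor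
    · exact h x
    · intro hx
      let f : U → U := fun u => ⟨g * u * g⁻¹, h u u.2⟩
      have hf : Function.Injective f := by
        intro a b hab
        have h1 : g * (a : G) * g⁻¹ = g * (b : G) * g⁻¹ := congrArg Subtype.val hab
        exact Subtype.ext (mul_left_cancel (mul_right_cancel h1))
      obtain ⟨a, ha⟩ := (Finite.injective_iff_surjective.1 hf) ⟨g * x * g⁻¹, hx⟩
      have h1 : g * (a : G) * g⁻¹ = g * x * g⁻¹ := congrArg Subtype.val ha
      have h2 : (a : G) = x := mul_left_cancel (mul_right_cancel h1)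
      rw [← h2]
      exact a.2
  · intro h u hu
    exact (Subgroup.mem_normalizer_iff.1 h u).1 hu

/-- [GEOB] `U` is transitive on the conjugates of `U` other than `U`. -/
theorem main : GeoBP.{u, v} := by
  intro G _ _ U H A K _ _ m hAx hSyl n hn g
  classical
  have hUN : U ≤ Subgroup.normalizer (U : Set G) := Subgroup.le_normalizer
  obtain ⟨t, ht, hqt⟩ : ∃ t : ℕ, 1 ≤ t ∧ qq m = 3 * t := by
    refine ⟨3 ^ (2 * m), Nat.one_le_pow _ _ (by norm_num), ?_⟩
    unfold qq
    rw [pow_succ]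
    ring
  have hqpos : 0 < qq m := by omega
  -- the index of `N(U)`
  have hidx : (Subgroup.normalizer (U : Set G)).index = qq m ^ 3 + 1 := by
    have h1 := Subgroup.card_mul_index (Subgroup.normalizer (U : Set G))
    rw [hSyl.1, hAx.card] at h1
    have hpos : 0 < qq m ^ 3 * (qq m - 1) := Nat.mul_pos (by positivity) (by omega)
    exact Nat.eq_of_mul_eq_mul_left hpos h1
  -- 3-elements of `N(U)` lie in `U`
  have h3U : ∀ y ∈ Subgroup.normalizer (U : Set G), (∃ k : ℕ, y ^ 3 ^ k = 1) → y ∈ U := by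
    rintro y hy ⟨k, hk⟩
    have : Fact (Nat.Prime 3) := ⟨Nat.prime_three⟩
    have hU3 : IsPGroup 3 U := by
      apply IsPGroup.of_card (n := (2 * m + 1) * 3)
      rw [hAx.cardU, pow_mul]
    have hy3 : IsPGroup 3 (Subgroup.zpowers y) := by
      apply IsPGroup.of_card_dvd_pow (n := k)
      rw [Nat.card_zpowers]
      exact orderOf_dvd_of_pow_eq_one hk
    have hyN : Subgroup.zpowers y ≤ Subgroup.normalizer (U : Set G) := by
      rw [Subgroup.zpowers_le]
      exact hy
    have hsup : IsPGroup 3 (U ⊔ Subgroup.zpowers y : Subgroup G) :=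
      IsPGroup.to_sup_of_normal_left' hU3 hy3 hyN
    obtain ⟨j, hj⟩ := IsPGroup.iff_card.1 hsup
    have hle : U ⊔ Subgroup.zpowers y ≤ Subgroup.normalizer (U : Set G) := sup_le hUN hyN
    have hdvd : Nat.card (U ⊔ Subgroup.zpowers y : Subgroup G)
        ∣ Nat.card (Subgroup.normalizer (U : Set G)) := Subgroup.card_dvd_of_le hle
    rw [hj, hSyl.1] at hdvd
    have hcop : Nat.Coprime (3 ^ j) (qq m - 1) := by
      apply Nat.Coprime.pow_left
      rw [Nat.Prime.coprime_iff_not_dvd Nat.prime_three]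
      intro h
      omega
    have hdvd' : 3 ^ j ∣ qq m ^ 3 := hcop.dvd_of_dvd_mul_right hdvd
    have hcard : Nat.card (U ⊔ Subgroup.zpowers y : Subgroup G) ≤ Nat.card U := by
      rw [hj, hAx.cardU]
      exact Nat.le_of_dvd (by positivity) hdvd'
    have heq : U = U ⊔ Subgroup.zpowers y := Subgroup.eq_of_le_of_card_ge le_sup_left hcard
    rw [heq]
    exact Subgroup.mem_sup_right (Subgroup.mem_zpowers y)
  have hnN : n ∉ Subgroup.normalizer (U : Set G) := fun h => hn ((nu_iff U n).2 h)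
  -- the cosets `u n N`
  let F : U → G ⧸ Subgroup.normalizer (U : Set G) := fun a => (((a : G) * n : G) : G ⧸ _)
  have hF : Function.Injective F := by
    intro a b hab
    have h1 : ((a : G) * n)⁻¹ * ((b : G) * n) ∈ Subgroup.normalizer (U : Set G) :=
      QuotientGroup.eq.1 hab
    have h2 : ((a : G) * n)⁻¹ * ((b : G) * n) = n⁻¹ * ((a : G)⁻¹ * b) * n := by group
    rw [h2] at h1
    have hw : (a : G)⁻¹ * b ∈ U := U.mul_mem (U.inv_mem a.2) b.2
    have hy9 : (n⁻¹ * ((a : G)⁻¹ * b) * n) ^ 3 ^ 2 = 1 := by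
      have h3 : (n⁻¹ * ((a : G)⁻¹ * b) * n) ^ 3 ^ 2 = n⁻¹ * ((a : G)⁻¹ * b) ^ 3 ^ 2 * n := by
        have h4 := conj_pow (a := n⁻¹) (b := (a : G)⁻¹ * b) (i := 3 ^ 2)
        rw [inv_inv] at h4
        exact h4
      have h5 : ((a : G)⁻¹ * b) ^ 3 ^ 2 = 1 := by
        have h6 := hAx.exp9 _ hw
        norm_num
        exact h6
      rw [h3, h5]
      group
    have hyU : n⁻¹ * ((a : G)⁻¹ * b) * n ∈ U := h3U _ h1 ⟨2, hy9⟩
    by_contra hne
    have hw1 : (a : G)⁻¹ * b ≠ 1 := by
      intro h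
      apply hne
      exact Subtype.ext (inv_mul_eq_one.1 h)
    have hti := hAx.ti n⁻¹ ⟨_, hw, hw1, by rw [inv_inv]; exact hyU⟩
    have hninv : n⁻¹ ∈ Subgroup.normalizer (U : Set G) := (nu_iff U n⁻¹).1 hti
    exact hnN (by simpa using Subgroup.inv_mem _ hninv)
  have hF1 : ((1 : G) : G ⧸ Subgroup.normalizer (U : Set G)) ∉ Set.range F := by
    rintro ⟨a, ha⟩
    have h1 : ((a : G) * n)⁻¹ * 1 ∈ Subgroup.normalizer (U : Set G) := QuotientGroup.eq.1 ha
    have h2 : (a : G) * n ∈ Subgroup.normalizer (U : Set G) := by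
      have h3 := Subgroup.inv_mem _ h1
      simpa using h3
    have h4 : n ∈ Subgroup.normalizer (U : Set G) := by
      have h5 := Subgroup.mul_mem _ (Subgroup.inv_mem _ (hUN a.2)) h2
      simpa using h5
    exact hnN h4
  have hS : insert ((1 : G) : G ⧸ Subgroup.normalizer (U : Set G)) (Set.range F) = Set.univ := by
    apply Set.eq_of_subset_of_ncard_le (Set.subset_univ _) _ (Set.toFinite _)
    rw [Set.ncard_insert_of_notMem hF1 (Set.toFinite _), Set.ncard_univ, ← Subgroup.index_eq_card,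
      hidx, ← Set.image_univ, Set.ncard_image_of_injective _ hF, Set.ncard_univ, hAx.cardU]
  have hg : ((g : G) : G ⧸ Subgroup.normalizer (U : Set G)) ∈
      insert ((1 : G) : G ⧸ Subgroup.normalizer (U : Set G)) (Set.range F) := by
    rw [hS]
    exact Set.mem_univ _
  rcases hg with hg | ⟨a, ha⟩
  · left
    have h1 : g⁻¹ * 1 ∈ Subgroup.normalizer (U : Set G) := QuotientGroup.eq.1 hg
    have h2 : g ∈ Subgroup.normalizer (U : Set G) := by
      have h3 := Subgroup.inv_mem _ h1
      simpa using h3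
    exact (nu_iff U g).2 h2
  · right
    refine ⟨a, a.2, ?_⟩
    have h1 : ((a : G) * n)⁻¹ * g ∈ Subgroup.normalizer (U : Set G) := QuotientGroup.eq.1 ha
    have h2 : ((a : G) * n)⁻¹ * g = n⁻¹ * (a : G)⁻¹ * g := by group
    rw [h2] at h1
    exact (nu_iff U _).2 h1

end Cfsg.Agent.Lib.Helper34.ReeAutGEOB
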