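import Mathlib
import Cfsg.Agent.Lib.Helper52.SpStmt
import Cfsg.Agent.Lib.Helper43.SpZ

set_option autoImplicit false

/-!
# Piece CM of S5171: a nontrivial normal subgroup of `PU` meets the centre of `PU`
-/

namespace Cfsg.Agent.Lib.Helper34.SpCM

open Matrix Cfsg.Agent.Lib.Helper13.SympMat Cfsg.Agent.Lib.Helper43.SpBasic
  Cfsg.Agent.Lib.Helper43.SpPair Cfsg.Agent.Lib.Helper43.SpSylow
  Cfsg.Agent.Lib.Helper43.SpRootOdd Cfsg.Agent.Lib.Helper43.SpZ
  Cfsg.Agent.Lib.Helper52.SpStmt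

open Cfsg.Agent.Lib.Helper43.PSLnUT (IsUT isUT_one)

universe u

/-- A nontrivial subgroup of a `p`-group `P` that is normalized by `P` contains a nontrivial
element commuting with all elements of `P`. -/
theorem exists_central_of_normal' {X : Type*} [Group X] {p : ℕ} [Fact p.Prime]
    (P N : Subgroup X) [Finite ↥N]
    (hP : IsPGroup p ↥P) (hNP : N ≤ P) (hn : ∀ s ∈ P, ∀ t ∈ N, s * t * s⁻¹ ∈ N) (hN : N ≠ ⊥) :
    ∃ y ∈ N, y ≠ 1 ∧ ∀ z ∈ P, z * y = y * z := by
  let act : MulAction ↥P ↥N :=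
    { smul := fun z t => ⟨z * t * z⁻¹, hn z z.2 t t.2⟩
      one_smul := fun t => by
        apply Subtype.ext
        show ((1 : ↥P) : X) * t * ((1 : ↥P) : X)⁻¹ = t
        simp
      mul_smul := fun a b t => by
        apply Subtype.ext
        show ((a * b : ↥P) : X) * t * ((a * b : ↥P) : X)⁻¹ =
          (a : X) * ((b : X) * t * (b : X)⁻¹) * (a : X)⁻¹
        simp [mul_assoc] }
  have hpN : p ∣ Nat.card ↥N := by
    have hNp : IsPGroup p ↥N := hP.to_le hNP
    rcases hNp.card_eq_or_dvd with h | h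
    · exact absurd (Subgroup.card_eq_one.mp h) hN
    · exact h
  have hfix : (1 : ↥N) ∈ MulAction.fixedPoints ↥P ↥N := by
    intro z
    apply Subtype.ext
    show (z : X) * ((1 : ↥N) : X) * (z : X)⁻¹ = ((1 : ↥N) : X)
    simp
  obtain ⟨b, hb, hne⟩ := hP.exists_fixed_point_of_prime_dvd_card_of_fixed_point ↥N hpN hfix
  refine ⟨b, b.2, ?_, ?_⟩
  · intro h
    exact hne (Subtype.ext h.symm)
  · intro z hz
    have h1 : z * (b : X) * z⁻¹ = b := congrArg Subtype.val (hb ⟨z, hz⟩)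
    calc z * (b : X) = z * b * z⁻¹ * z := by group
      _ = b * z := by rw [h1]

section

variable {F : Type*} [Field F] {m : ℕ}

theorem single_mulVec_apply (i j k : Fin m) (c : F) (v : Fin m → F) :
    (Matrix.single i j c *ᵥ v) k = if k = i then c * v j else 0 := by
  rw [Matrix.single_mulVec]
  by_cases h : k = i
  · rw [if_pos h, h, Function.update_self]
  · rw [if_neg h, Function.update_of_ne h]
    rfl

/-- the central elements `Y (e i0) (e i1) a 0 c` in the `mk` parametrisation -/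
theorem Y_eq_mk [Finite F] (i0 i1 : Fin m) (a c : F) :
    Y (e i0) (e i1) a 0 c = mk 1 (zmat i0 i1 a c) isUT_one (zmat_isSymm i0 i1 a c) := by
  apply sp_ext
  intro x
  rw [Y_mulVec (form_e_e i0 i1), mk_one_coe, Matrix.fromBlocks_mulVec, form_e_right,
    form_e_right]
  funext k
  rcases k with k | k
  · simp only [Pi.add_apply, Pi.smul_apply, smul_eq_mul, e_apply_inl, Sum.elim_inl,
      Matrix.one_mulVec, Function.comp_apply, zmat, Matrix.add_mulVec, single_mulVec_apply]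
    split_ifs <;> ring
  · simp only [Pi.add_apply, Pi.smul_apply, smul_eq_mul, e_apply_inr, Sum.elim_inr,
      Matrix.one_mulVec, Matrix.zero_mulVec, Function.comp_apply, Pi.zero_apply]
    ring

theorem t_e_eq_mk [Finite F] (i0 i1 : Fin m) (c : F) :
    t (e i0) c = mk 1 (zmat i0 i1 c 0) isUT_one (zmat_isSymm i0 i1 c 0) := by
  apply Subtype.ext
  rw [t_e_coe, mk_one_coe]
  congr 1
  unfold zmat
  rw [Matrix.single_zero, Matrix.single_zero, add_zero, add_zero, Matrix.smul_single,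
    smul_eq_mul, mul_one]

end

theorem main : CenterMeet.{u} := by
  intro m F _ _ p _ _ hm i0 i1 hi0 hi1 T hT hTne hTn
  have hm1 : 1 ≤ m := by omega
  obtain ⟨n, -, hn⟩ := FiniteField.card F p
  have hPU : IsPGroup p (PU : Subgroup (Cfsg.PSp m F)) := isPGroup_PU hn hm1
  obtain ⟨z, hzT, hz1, hzc⟩ := exists_central_of_normal' (p := p) PU T hPU hT hTn hTne
  obtain ⟨A, hA, rfl⟩ := hT hzT
  have hA1 : A ≠ 1 := by
    rintro rfl
    exact hz1 (map_one _)
  have hc : ∀ B ∈ (U : Subgroup (Matrix.symplecticGroup (Fin m) F)), A * B = B * A := by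
    intro B hB
    have h1 := hzc (pr B) (Subgroup.mem_map_of_mem _ hB)
    rw [← map_mul, ← map_mul] at h1
    exact (pr_injOn_U hm1 (U.mul_mem hB hA) (U.mul_mem hA hB) h1).symm
  have e0 : i0 = ⟨0, by omega⟩ := Fin.ext hi0
  have e1 : i1 = ⟨1, hm⟩ := Fin.ext hi1
  by_cases h2 : (2 : F) = 0
  · obtain ⟨a, c, hAY⟩ := center_U_gen hm hA hc
    rw [← e0, ← e1, Y_eq_mk] at hAY
    refine ⟨a, c, zmat_isSymm i0 i1 a c, ?_, Or.inr h2, ?_⟩
    · by_contra hcon
      push Not at hcon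
      apply hA1
      rw [hAY]
      obtain ⟨rfl, rfl⟩ := hcon
      rw [← t_e_eq_mk, t_zero]
    · rw [← hAY]
      exact hzT
  · obtain ⟨c, hAt⟩ := center_U hm1 h2 hA hc
    rw [← e0, t_e_eq_mk i0 i1] at hAt
    refine ⟨c, 0, zmat_isSymm i0 i1 c 0, ?_, Or.inl rfl, ?_⟩
    · left
      rintro rfl
      apply hA1
      rw [hAt, ← t_e_eq_mk, t_zero]
    · rw [← hAt]
      exact hzT

end Cfsg.Agent.Lib.Helper34.SpCM
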