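import Mathlib
import Cfsg.Agent.Lib.Helper52.SpStmt
import Cfsg.Agent.Lib.Helper52.PslP7c
import Cfsg.Agent.Lib.Helper69.SpRQB
import Cfsg.Agent.Lib.Helper48.SpR2O
import Cfsg.Agent.Lib.Helper43.SpRootOdd

set_option autoImplicit false

/-!
# Piece TB of S5171: the torus of the last hyperbolic pair of `Sp_{2m}`

A diagonal symplectic matrix which is the identity outside the last hyperbolic pair normalizes
`U` and is a product of five transvections `t (e l) c`, `t (f l) c` (`l` the last index), which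
are `p`-elements normalizing `R2S`.
-/

namespace Cfsg.Agent.Lib.Helper34.SpTB

open Matrix Cfsg.Agent.Lib.Helper13.SympMat Cfsg.Agent.Lib.Helper43.SpBasic
  Cfsg.Agent.Lib.Helper43.SpSylow Cfsg.Agent.Lib.Helper43.SpRootOdd
open Cfsg.Agent.Lib.Helper43.PSLnUT (IsUT isUT_one)
open Cfsg.Agent.Lib.Helper52.SpStmt

universe u

variable {m : ℕ} {F : Type u} [Field F]

theorem diag_mulVec (d : Matrix (Fin m ⊕ Fin m) (Fin m ⊕ Fin m) F)
    (hd : ∀ i j : Fin m ⊕ Fin m, i ≠ j → d i j = 0) (x : Fin m ⊕ Fin m → F)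
    (i : Fin m ⊕ Fin m) : (d *ᵥ x) i = d i i * x i := by
  rw [Matrix.mulVec, dotProduct, Finset.sum_eq_single i]
  · intro j _ hj
    rw [hd i j (Ne.symm hj), zero_mul]
  · intro h
    exact absurd (Finset.mem_univ i) h

theorem diag_mul_apply (d M : Matrix (Fin m ⊕ Fin m) (Fin m ⊕ Fin m) F)
    (hd : ∀ i j : Fin m ⊕ Fin m, i ≠ j → d i j = 0) (i j : Fin m ⊕ Fin m) :
    (d * M) i j = d i i * M i j := by
  rw [Matrix.mul_apply, Finset.sum_eq_single i]
  · intro k _ hk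
    rw [hd i k (Ne.symm hk), zero_mul]
  · intro h
    exact absurd (Finset.mem_univ i) h

theorem mul_diag_apply (d M : Matrix (Fin m ⊕ Fin m) (Fin m ⊕ Fin m) F)
    (hd : ∀ i j : Fin m ⊕ Fin m, i ≠ j → d i j = 0) (i j : Fin m ⊕ Fin m) :
    (M * d) i j = M i j * d j j := by
  rw [Matrix.mul_apply, Finset.sum_eq_single j]
  · intro k _ hk
    rw [hd k j hk, mul_zero]
  · intro h
    exact absurd (Finset.mem_univ j) h

theorem diag_ne_zero (d : Matrix.symplecticGroup (Fin m) F)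
    (hd : ∀ i j : Fin m ⊕ Fin m, i ≠ j → (d : Matrix (Fin m ⊕ Fin m) (Fin m ⊕ Fin m) F) i j = 0)
    (j : Fin m ⊕ Fin m) : (d : Matrix (Fin m ⊕ Fin m) (Fin m ⊕ Fin m) F) j j ≠ 0 := by
  have h1 : d * d⁻¹ = 1 := mul_inv_cancel d
  have h2 : (d : Matrix (Fin m ⊕ Fin m) (Fin m ⊕ Fin m) F) *
      ((d⁻¹ : Matrix.symplecticGroup (Fin m) F) : Matrix (Fin m ⊕ Fin m) (Fin m ⊕ Fin m) F) =
        1 := by
    have h3 := congrArg (fun z : Matrix.symplecticGroup (Fin m) F =>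
      (z : Matrix (Fin m ⊕ Fin m) (Fin m ⊕ Fin m) F)) h1
    simpa only [Submonoid.coe_mul, Submonoid.coe_one] using h3
  have h4 := congrFun (congrFun h2 j) j
  rw [diag_mul_apply _ _ hd, Matrix.one_apply_eq] at h4
  exact left_ne_zero_of_mul_eq_one h4

theorem conj_entry_eq (d x : Matrix.symplecticGroup (Fin m) F)
    (hd : ∀ i j : Fin m ⊕ Fin m, i ≠ j → (d : Matrix (Fin m ⊕ Fin m) (Fin m ⊕ Fin m) F) i j = 0)
    (i j : Fin m ⊕ Fin m) :
    ((d * x * d⁻¹ : Matrix.symplecticGroup (Fin m) F) :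
        Matrix (Fin m ⊕ Fin m) (Fin m ⊕ Fin m) F) i j *
      (d : Matrix (Fin m ⊕ Fin m) (Fin m ⊕ Fin m) F) j j =
    (d : Matrix (Fin m ⊕ Fin m) (Fin m ⊕ Fin m) F) i i *
      (x : Matrix (Fin m ⊕ Fin m) (Fin m ⊕ Fin m) F) i j := by
  have h1 : d * x * d⁻¹ * d = d * x := by group
  have h2 : ((d * x * d⁻¹ : Matrix.symplecticGroup (Fin m) F) :
        Matrix (Fin m ⊕ Fin m) (Fin m ⊕ Fin m) F) *
      (d : Matrix (Fin m ⊕ Fin m) (Fin m ⊕ Fin m) F) =
      (d : Matrix (Fin m ⊕ Fin m) (Fin m ⊕ Fin m) F) *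
        (x : Matrix (Fin m ⊕ Fin m) (Fin m ⊕ Fin m) F) := by
    have h3 := congrArg (fun z : Matrix.symplecticGroup (Fin m) F =>
      (z : Matrix (Fin m ⊕ Fin m) (Fin m ⊕ Fin m) F)) h1
    simpa only [Submonoid.coe_mul] using h3
  have h4 := congrFun (congrFun h2 i) j
  rw [mul_diag_apply _ _ hd, diag_mul_apply _ _ hd] at h4
  exact h4

theorem diag_mulVec_e (d : Matrix (Fin m ⊕ Fin m) (Fin m ⊕ Fin m) F)
    (hd : ∀ i j : Fin m ⊕ Fin m, i ≠ j → d i j = 0) (l : Fin m) :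
    d *ᵥ (e l : Fin m ⊕ Fin m → F) = d (Sum.inl l) (Sum.inl l) • e l := by
  funext i
  rw [diag_mulVec _ hd, Pi.smul_apply, smul_eq_mul]
  rcases i with k | k
  · rw [e_apply_inl]
    by_cases h : k = l
    · rw [if_pos h, h]
    · rw [if_neg h, mul_zero, mul_zero]
  · rw [e_apply_inr, mul_zero, mul_zero]

theorem diag_mulVec_f (d : Matrix (Fin m ⊕ Fin m) (Fin m ⊕ Fin m) F)
    (hd : ∀ i j : Fin m ⊕ Fin m, i ≠ j → d i j = 0) (l : Fin m) :
    d *ᵥ (f l : Fin m ⊕ Fin m → F) = d (Sum.inr l) (Sum.inr l) • f l := by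
  funext i
  rw [diag_mulVec _ hd, Pi.smul_apply, smul_eq_mul]
  rcases i with k | k
  · rw [f_apply_inl, mul_zero, mul_zero]
  · rw [f_apply_inr]
    by_cases h : k = l
    · rw [if_pos h, h]
    · rw [if_neg h, mul_zero, mul_zero]

/-- the two diagonal entries of a hyperbolic pair of a diagonal symplectic matrix are inverse -/
theorem diag_mul_eq_one (d : Matrix.symplecticGroup (Fin m) F)
    (hd : ∀ i j : Fin m ⊕ Fin m, i ≠ j → (d : Matrix (Fin m ⊕ Fin m) (Fin m ⊕ Fin m) F) i j = 0)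
    (l : Fin m) :
    (d : Matrix (Fin m ⊕ Fin m) (Fin m ⊕ Fin m) F) (Sum.inl l) (Sum.inl l) *
      (d : Matrix (Fin m ⊕ Fin m) (Fin m ⊕ Fin m) F) (Sum.inr l) (Sum.inr l) = 1 := by
  have h1 := form_mulVec d (f l : Fin m ⊕ Fin m → F) (e l)
  rw [diag_mulVec_e _ hd, diag_mulVec_f _ hd] at h1
  simp only [map_smul, LinearMap.smul_apply, smul_eq_mul, form_e_right, f_apply_inr,
    if_true, mul_one] at h1
  exact h1

/-- the decomposition of the torus element into transvections -/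
theorem diag_eq_prod (d : Matrix.symplecticGroup (Fin m) F)
    (hd : ∀ i j : Fin m ⊕ Fin m, i ≠ j → (d : Matrix (Fin m ⊕ Fin m) (Fin m ⊕ Fin m) F) i j = 0)
    (l : Fin m)
    (h1 : ∀ i : Fin m, i ≠ l →
      (d : Matrix (Fin m ⊕ Fin m) (Fin m ⊕ Fin m) F) (Sum.inl i) (Sum.inl i) = 1) :
    d = t (e l) ((d : Matrix (Fin m ⊕ Fin m) (Fin m ⊕ Fin m) F) (Sum.inl l) (Sum.inl l)) *
      t (f l) ((d : Matrix (Fin m ⊕ Fin m) (Fin m ⊕ Fin m) F) (Sum.inl l) (Sum.inl l))⁻¹ *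
      t (e l) ((d : Matrix (Fin m ⊕ Fin m) (Fin m ⊕ Fin m) F) (Sum.inl l) (Sum.inl l) - 1) *
      t (f l) (-1) * t (e l) (-1) := by
  obtain ⟨lam, hlam⟩ : ∃ lam : F,
    lam = (d : Matrix (Fin m ⊕ Fin m) (Fin m ⊕ Fin m) F) (Sum.inl l) (Sum.inl l) := ⟨_, rfl⟩
  rw [← hlam]
  have hlam0 : lam ≠ 0 := by rw [hlam]; exact diag_ne_zero d hd _
  have hmu : (d : Matrix (Fin m ⊕ Fin m) (Fin m ⊕ Fin m) F) (Sum.inr l) (Sum.inr l) = lam⁻¹ := by
    have h2 := diag_mul_eq_one d hd l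
    rw [← hlam] at h2
    exact eq_inv_of_mul_eq_one_right h2
  have h1' : ∀ i : Fin m, i ≠ l →
      (d : Matrix (Fin m ⊕ Fin m) (Fin m ⊕ Fin m) F) (Sum.inr i) (Sum.inr i) = 1 := by
    intro i hi
    have h2 := diag_mul_eq_one d hd i
    rw [h1 i hi, one_mul] at h2
    exact h2
  apply sp_ext
  intro x
  funext i
  rw [diag_mulVec _ hd]
  rcases i with k | k
  · simp only [mul_mulVec, t_mulVec, form_e_right, form_f_right, Pi.add_apply, Pi.smul_apply,
      smul_eq_mul, e_apply_inl, e_apply_inr, f_apply_inl, f_apply_inr]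
    by_cases hk : k = l
    · subst hk
      rw [← hlam]
      simp only [if_true]
      field_simp
      ring
    · rw [h1 k hk]
      simp only [if_neg hk]
      ring
  · simp only [mul_mulVec, t_mulVec, form_e_right, form_f_right, Pi.add_apply, Pi.smul_apply,
      smul_eq_mul, e_apply_inl, e_apply_inr, f_apply_inl, f_apply_inr]
    by_cases hk : k = l
    · subst hk
      rw [hmu]
      simp only [if_true]
      field_simp
      ring
    · rw [h1' k hk]
      simp only [if_neg hk]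
      ring

theorem order_pr_t (p : ℕ) [Fact p.Prime] [CharP F p] (v : Fin m ⊕ Fin m → F) (c : F) :
    ∃ k : ℕ, orderOf (pr (t v c)) = p ^ k := by
  have h1 : (pr (t v c)) ^ p = 1 := by rw [← map_pow, t_pow_char p, map_one]
  have h2 := orderOf_dvd_of_pow_eq_one h1
  rcases (Nat.dvd_prime (Fact.out : p.Prime)).mp h2 with h | h
  · exact ⟨0, by rw [h, pow_zero]⟩
  · exact ⟨1, by rw [h, pow_one]⟩

variable [Fintype F]

theorem pr_mem_norm_R2 (g : Matrix.symplecticGroup (Fin m) F)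
    (h : ∀ x ∈ R2S m F, g * x * g⁻¹ ∈ R2S m F) :
    pr g ∈ Subgroup.normalizer ((R2 m F : Subgroup (Cfsg.PSp m F)) : Set (Cfsg.PSp m F)) :=
  Subgroup.le_normalizer_map pr (Subgroup.mem_map_of_mem pr
    (Cfsg.Agent.Lib.Helper52.PslP7c.mem_normalizer_of_conj _ g h))

theorem main : TorusB.{u} := by
  intro m F _ _ p _ _ hm d hd h1
  have hlt : m - 1 < m := by omega
  have hl : ∀ k : Fin m, k ≤ (⟨m - 1, hlt⟩ : Fin m) := by
    intro k
    rw [Fin.le_def]
    have := k.2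
    show (k : ℕ) ≤ m - 1
    omega
  have hlm : ((⟨m - 1, hlt⟩ : Fin m) : ℕ) + 1 = m := by
    show m - 1 + 1 = m
    omega
  generalize (⟨m - 1, hlt⟩ : Fin m) = l at hl hlm
  have h1l : ∀ i : Fin m, i ≠ l →
      (d : Matrix (Fin m ⊕ Fin m) (Fin m ⊕ Fin m) F) (Sum.inl i) (Sum.inl i) = 1 := by
    intro i hi
    apply h1
    intro h
    apply hi
    apply Fin.ext
    omega
  constructor
  · -- normalizes `PU`
    have hnorm : d ∈ Subgroup.normalizer
        ((U : Subgroup (Matrix.symplecticGroup (Fin m) F)) :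
          Set (Matrix.symplecticGroup (Fin m) F)) := by
      apply Cfsg.Agent.Lib.Helper52.PslP7c.mem_normalizer_of_conj
      intro x hx
      rw [mem_U]
      refine ⟨?_, ?_, ?_⟩
      · ext i k
        show ((d * x * d⁻¹ : Matrix.symplecticGroup (Fin m) F) :
          Matrix (Fin m ⊕ Fin m) (Fin m ⊕ Fin m) F) (Sum.inr i) (Sum.inl k) = 0
        have h := conj_entry_eq d x hd (Sum.inr i) (Sum.inl k)
        have hx0 : (x : Matrix (Fin m ⊕ Fin m) (Fin m ⊕ Fin m) F) (Sum.inr i) (Sum.inl k) = 0 :=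
          congrFun (congrFun hx.1 i) k
        rw [hx0, mul_zero] at h
        exact (mul_eq_zero.mp h).resolve_right (diag_ne_zero d hd _)
      · intro i k hki
        show ((d * x * d⁻¹ : Matrix.symplecticGroup (Fin m) F) :
          Matrix (Fin m ⊕ Fin m) (Fin m ⊕ Fin m) F) (Sum.inl i) (Sum.inl k) = 0
        have h := conj_entry_eq d x hd (Sum.inl i) (Sum.inl k)
        have hx0 : (x : Matrix (Fin m ⊕ Fin m) (Fin m ⊕ Fin m) F) (Sum.inl i) (Sum.inl k) = 0 :=
          hx.2.1 i k hki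
        rw [hx0, mul_zero] at h
        exact (mul_eq_zero.mp h).resolve_right (diag_ne_zero d hd _)
      · intro i
        show ((d * x * d⁻¹ : Matrix.symplecticGroup (Fin m) F) :
          Matrix (Fin m ⊕ Fin m) (Fin m ⊕ Fin m) F) (Sum.inl i) (Sum.inl i) = 1
        have h := conj_entry_eq d x hd (Sum.inl i) (Sum.inl i)
        have hx0 : (x : Matrix (Fin m ⊕ Fin m) (Fin m ⊕ Fin m) F) (Sum.inl i) (Sum.inl i) = 1 :=
          hx.2.2 i
        rw [hx0, mul_one] at h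
        have h0 := diag_ne_zero d hd (Sum.inl i)
        exact mul_right_cancel₀ h0 (by rw [h, one_mul])
    exact Subgroup.le_normalizer_map pr (Subgroup.mem_map_of_mem pr hnorm)
  · -- product of `p`-elements normalizing `R2`
    have hE : ∀ c : F, pr (t (e l) c) ∈ Subgroup.closure {k : Cfsg.PSp m F |
        k ∈ Subgroup.normalizer (R2 m F : Set (Cfsg.PSp m F)) ∧ ∃ e : ℕ, orderOf k = p ^ e} := by
      intro c
      apply Subgroup.subset_closure
      refine ⟨pr_mem_norm_R2 _ ?_, order_pr_t p _ c⟩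
      intro x hx
      exact Cfsg.Agent.Lib.Helper69.SpRQB.conj_mem_R2S (t_e_mem_U l c) hx
    have hF : ∀ c : F, pr (t (f l) c) ∈ Subgroup.closure {k : Cfsg.PSp m F |
        k ∈ Subgroup.normalizer (R2 m F : Set (Cfsg.PSp m F)) ∧ ∃ e : ℕ, orderOf k = p ^ e} := by
      intro c
      apply Subgroup.subset_closure
      refine ⟨pr_mem_norm_R2 _ ?_, order_pr_t p _ c⟩
      intro x hx
      exact Cfsg.Agent.Lib.Helper48.SpR2O.M2_le l hl hlm
        (Cfsg.Agent.Lib.Helper48.SpR2O.conj_mem l hl c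
          (Cfsg.Agent.Lib.Helper48.SpR2O.R2S_le l hl hlm hx))
    rw [diag_eq_prod d hd l h1l, map_mul, map_mul, map_mul, map_mul]
    exact Subgroup.mul_mem _ (Subgroup.mul_mem _ (Subgroup.mul_mem _
      (Subgroup.mul_mem _ (hE _) (hF _)) (hE _)) (hF _)) (hE _)

end Cfsg.Agent.Lib.Helper34.SpTB
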