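import Mathlib
import Cfsg.Agent.Lib.Helper14.TC3Stmt
import Cfsg.Agent.S4456

/-!
# S4460 / THN (helper34): Thompson's normal `q`-complement of a normal subgroup `N` is normal
in `G`
-/

set_option autoImplicit false

namespace Cfsg.Agent.Lib.Helper34.TC3THN

open Cfsg Cfsg.Agent.Lib.Helper14.TC3Stmt

universe u

theorem main : THN.{u} := by
  intro G _ _ N q hN hq hdeg
  obtain ⟨L₁, hL₁n, hL₁c, k, hk⟩ := Cfsg.Agent.S4456.result q hq hdeg
  have hmem : ∀ x : ↥N, x ∈ L₁ ↔ (orderOf x).Coprime q := by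
    intro x
    constructor
    · intro hx
      have h1 : orderOf (⟨x, hx⟩ : ↥L₁) ∣ Nat.card ↥L₁ := orderOf_dvd_natCard _
      have h2 : orderOf (⟨x, hx⟩ : ↥L₁) = orderOf x := Subgroup.orderOf_mk x hx
      rw [← h2]
      exact Nat.Coprime.coprime_dvd_left h1 hL₁c
    · intro hx
      have h1 : x ^ (q ^ k) ∈ L₁ := by
        rw [← hk]
        exact Subgroup.pow_index_mem L₁ x
      have h2 : (q ^ k).Coprime (orderOf x) := (Nat.Coprime.pow_right k hx).symm
      obtain ⟨m, hm⟩ := exists_pow_eq_self_of_coprime h2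
      rw [← hm]
      exact L₁.pow_mem h1 m
  refine ⟨L₁.map N.subtype, ⟨?_⟩, Subgroup.map_subtype_le L₁, ?_, k, ?_⟩
  · intro x hx g
    obtain ⟨y, hy, rfl⟩ := hx
    have hgy : g * (y : G) * g⁻¹ ∈ N := hN.conj_mem _ y.2 g
    refine ⟨⟨g * y * g⁻¹, hgy⟩, ?_, rfl⟩
    rw [SetLike.mem_coe, hmem]
    have e1 : orderOf (⟨g * y * g⁻¹, hgy⟩ : ↥N) = orderOf y := by
      rw [Subgroup.orderOf_mk, ← Subgroup.orderOf_coe y]
      exact MulEquiv.orderOf_eq (MulAut.conj g) (y : G)
    rw [e1]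
    exact (hmem y).1 hy
  · rw [Subgroup.card_map_of_injective N.subtype_injective]
    exact hL₁c
  · have e : (L₁.map N.subtype).subgroupOf N = L₁ := by
      ext x
      rw [Subgroup.mem_subgroupOf, Subgroup.mem_map]
      constructor
      · rintro ⟨y, hy, hyx⟩
        have : y = x := Subtype.ext hyx
        rw [← this]; exact hy
      · intro hx
        exact ⟨x, hx, rfl⟩
    rw [Subgroup.relIndex, e, hk]

end Cfsg.Agent.Lib.Helper34.TC3THN
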