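import Mathlib
import Cfsg.Agent.Lib.Helper44.TSStmt

set_option autoImplicit false

namespace Cfsg.Agent.Lib.Helper34.TSB2A

open Cfsg.Agent.Lib.Helper37.HypStmt Cfsg.Agent.Lib.Helper37.HypStmt2
open Cfsg.Agent.Lib.Helper44.TSStmt
open scoped Matrix

universe u

theorem cc_le (i : ℕ) : cc i ≤ 2 * i := by
  unfold cc
  split_ifs <;> omega

theorem cc_even (i : ℕ) : Even (cc i) := by
  unfold cc
  split_ifs with h
  · exact h
  · exact even_two_mul i

theorem cc_pos {i : ℕ} (h : 0 < i) : 0 < cc i := by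
  unfold cc
  split_ifs <;> omega

theorem mem_iso_of_mem_omega {F : Type u} [Field F] {d : ℕ}
    (x : Matrix.GeneralLinearGroup (I d) F)
    (hx : x ∈ Cfsg.Geo.omegaGL (Cfsg.quadFormOdd d F)) :
    x ∈ Cfsg.isometryGroup F (Cfsg.quadFormOdd d F) := by
  unfold Cfsg.Geo.omegaGL at hx
  obtain ⟨y, -, hy⟩ := Subgroup.mem_map.1 hx
  rw [← hy]
  exact y.2

/-- [B2A] an element of order `r` of `Ω` without invariant totally singular `m`-space. -/
theorem main (hIPos : IPos.{u}) (hDer : DerElt.{u}) (hFix : FixND.{u}) (hInv : InvDim.{u})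
    (hTs : TsHalf.{u}) (hR : RImg.{u}) : B2A.{u} := by
  intro F _ _ p _ _ hodd d m hd hm hmd r _ hr2 hrp hK hcase
  have hi : 0 < orderOf ((Fintype.card F : ℕ) : ZMod r) := hIPos F p r hrp
  obtain ⟨i, hidef⟩ : ∃ i, i = orderOf ((Fintype.card F : ℕ) : ZMod r) := ⟨_, rfl⟩
  rw [← hidef] at hi hK hcase
  have hcpos := cc_pos hi
  have hcle := cc_le i
  obtain ⟨k', hk'⟩ := cc_even i
  have hcn : cc i ≤ 2 * d + 1 := by
    by_contra hlt
    push Not at hlt
    rw [Nat.mod_eq_of_lt hlt] at hK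
    omega
  obtain ⟨x, hxO, hxr, hxF⟩ := hDer F p hodd d hd r hr2 hrp (by rw [← hidef]; exact hcn)
  refine ⟨x, hxO, hxr, ?_⟩
  intro W hWm hWts hWst
  have hxI := mem_iso_of_mem_omega x hxO
  have hxpow : x ^ r = 1 := by
    rw [← hxr]
    exact pow_orderOf_eq_one x
  obtain ⟨R, hRW, hRst, hRF, hRdim, -⟩ := hR F p d r hrp x hxpow W hWst
  have hdvd : i ∣ Module.finrank F ↥R := by
    rw [hidef]
    exact hInv F p d r hrp x hxpow R hRst hRF
  have hND := hFix F p hodd d r hrp x hxI hxpow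
  have hhalf := hTs F hodd d (Fx (x : Matrix (I d) (I d) F))
    (W ⊓ Fx (x : Matrix (I d) (I d) F)) hND inf_le_right (fun w hw => hWts w hw.1)
  rw [hxF, ← hidef] at hhalf
  have hdm := Nat.div_add_mod (2 * d + 1) (cc i)
  obtain ⟨T, hT⟩ : ∃ T, T = (2 * d + 1) / cc i := ⟨_, rfl⟩
  rw [← hT] at hdm
  have hct : cc i * T = 2 * (k' * T) := by
    rw [hk']
    ring
  have hKlt : (2 * d + 1) % cc i < cc i := Nat.mod_lt _ hcpos
  obtain ⟨k, hk⟩ := hdvd
  rw [hWm] at hRdim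
  rcases hcase with hmi | hKm
  · have hk0 : k = 0 := by
      by_contra hne
      have h1 : i ≤ i * k := Nat.le_mul_of_pos_right i (Nat.pos_of_ne_zero hne)
      omega
    rw [hk0, Nat.mul_zero] at hk
    omega
  · have hf : Module.finrank F ↥(W ⊓ Fx (x : Matrix (I d) (I d) F)) < i := by omega
    have hmod : m % i = Module.finrank F ↥(W ⊓ Fx (x : Matrix (I d) (I d) F)) := by
      rw [← hRdim, hk, Nat.mul_add_mod, Nat.mod_eq_of_lt hf]
    omega

end Cfsg.Agent.Lib.Helper34.TSB2A
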