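import Mathlib
import Cfsg.Agent.Lib.Helper44.TSStmt
import Cfsg.Agent.Lib.Helper34.TSB2A

set_option autoImplicit false

namespace Cfsg.Agent.Lib.Helper34.TSB2B

open Cfsg.Agent.Lib.Helper37.HypStmt Cfsg.Agent.Lib.Helper37.HypStmt2
open Cfsg.Agent.Lib.Helper44.TSStmt Cfsg.Agent.Lib.Helper34.TSB2A
open scoped Matrix

universe u

/-- [B2B] `i` even: an element of order `r` of `Ω` without invariant totally singular
`m`-space (many pairwise different irreducible blocks). -/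
theorem main (hIPos : IPos.{u}) (hMult : MultElt.{u}) (hFix : FixND.{u}) (hTs : TsHalf.{u})
    (hR : RImg.{u}) : B2B.{u} := by
  intro F _ _ p _ _ hodd d m hd hm hmd r _ hr2 hrp heven him hmod hlt
  have hi : 0 < orderOf ((Fintype.card F : ℕ) : ZMod r) := hIPos F p r hrp
  obtain ⟨i, hidef⟩ : ∃ i, i = orderOf ((Fintype.card F : ℕ) : ZMod r) := ⟨_, rfl⟩
  rw [← hidef] at hi heven him hmod hlt
  have hn := Nat.div_add_mod (2 * d + 1) i
  have hmm := Nat.div_add_mod m i
  have hK'lt : (2 * d + 1) % i < i := Nat.mod_lt _ hi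
  have hm'pos : 1 ≤ m / i := Nat.div_pos him hi
  have h2m' : 2 * (m / i) ≤ (2 * d + 1) / i := by
    rw [Nat.le_div_iff_mul_le hi]
    have h1 := Nat.mul_div_le m i
    calc 2 * (m / i) * i = 2 * (i * (m / i)) := by ring
      _ ≤ 2 * m := by omega
      _ ≤ 2 * d + 1 := by omega
  obtain ⟨u, hu⟩ : ∃ u, u + 2 * (m / i) = (2 * d + 1) / i + 1 :=
    ⟨(2 * d + 1) / i + 1 - 2 * (m / i), by omega⟩
  have hZ : i * u + 2 * (i * (m / i)) = i * ((2 * d + 1) / i) + i := by
    calc i * u + 2 * (i * (m / i)) = i * (u + 2 * (m / i)) := by ring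
      _ = i * ((2 * d + 1) / i + 1) := by rw [hu]
      _ = i * ((2 * d + 1) / i) + i := by ring
  have hY1 : i ≤ i * (m / i) := Nat.le_mul_of_pos_right i hm'pos
  have hu1 : 1 ≤ u := by omega
  have hu2 : u ≤ (r - 1) / i := by omega
  have hu3 : i * u ≤ 2 * d := by omega
  obtain ⟨x, hxO, hxr, hxF, hxR⟩ := hMult F p hodd d hd r hr2 hrp (by rw [← hidef]; exact heven)
    u hu1 (by rw [← hidef]; exact hu2) (by rw [← hidef]; exact hu3)
  refine ⟨x, hxO, hxr, ?_⟩
  intro W hWm hWts hWst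
  have hxI := mem_iso_of_mem_omega x hxO
  have hxpow : x ^ r = 1 := by
    rw [← hxr]
    exact pow_orderOf_eq_one x
  obtain ⟨R, hRW, hRst, hRF, hRdim, -⟩ := hR F p d r hrp x hxpow W hWst
  have hRbot : R = ⊥ := hxR R hRst hRF (fun w hw => hWts w (hRW hw))
  rw [hRbot, finrank_bot, zero_add, hWm] at hRdim
  have hND := hFix F p hodd d r hrp x hxI hxpow
  have hhalf := hTs F hodd d (Fx (x : Matrix (I d) (I d) F))
    (W ⊓ Fx (x : Matrix (I d) (I d) F)) hND inf_le_right (fun w hw => hWts w hw.1)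
  rw [hRdim, hxF, ← hidef] at hhalf
  omega

end Cfsg.Agent.Lib.Helper34.TSB2B
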