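import Mathlib
import Cfsg.Agent.Lib.Helper34.Cocycle
import Cfsg.Agent.Lib.Helper63.PFrattini

set_option autoImplicit false

namespace Cfsg.Agent.Lib.Helper34.WYBase

open Cfsg.Agent.Lib.Helper34.Cocycle

section Coset

variable {G : Type*} [Group G] (H : Subgroup G) {A : Type*} [CommGroup A] (lam : H →* A)

theorem out_mem (g : G) (ω : G ⧸ H) : (g • ω).out⁻¹ * g * ω.out ∈ H := by
  have h1 : (((g • ω).out : G) : G ⧸ H) = ((g * ω.out : G) : G ⧸ H) := by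
    rw [QuotientGroup.out_eq']
    conv_lhs => rw [← QuotientGroup.out_eq' ω]
    rfl
  have := QuotientGroup.eq.mp h1
  rwa [← mul_assoc] at this

/-- the transfer cocycle on `G ⧸ H` attached to `lam : H →* A`. -/
noncomputable def coc (g : G) (ω : G ⧸ H) : A := lam ⟨(g • ω).out⁻¹ * g * ω.out, out_mem H g ω⟩

theorem isCoc : IsCoc (coc H lam) := by
  intro g h ω
  unfold coc
  rw [← map_mul]
  congr 1
  apply Subtype.ext
  simp only [Subgroup.coe_mul, mul_smul]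
  group

theorem coc_fixed (g : G) (ω : G ⧸ H) (hfix : g • ω = ω) (t : G) (ht : (t : G ⧸ H) = ω) :
    ∃ hmem : t⁻¹ * g * t ∈ H, coc H lam g ω = lam ⟨t⁻¹ * g * t, hmem⟩ := by
  have h1 : ω.out⁻¹ * t ∈ H := QuotientGroup.eq.mp (by rw [QuotientGroup.out_eq', ht])
  have h2 : ω.out⁻¹ * g * ω.out ∈ H := by
    have := out_mem H g ω
    rwa [hfix] at this
  have hmem : t⁻¹ * g * t ∈ H := by
    have e : t⁻¹ * g * t = (ω.out⁻¹ * t)⁻¹ * (ω.out⁻¹ * g * ω.out) * (ω.out⁻¹ * t) := by group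
    rw [e]
    exact H.mul_mem (H.mul_mem (H.inv_mem h1) h2) h1
  refine ⟨hmem, ?_⟩
  have e2 : coc H lam g ω = lam ⟨ω.out⁻¹ * g * ω.out, h2⟩ := by
    unfold coc
    congr 1
    apply Subtype.ext
    show (g • ω).out⁻¹ * g * ω.out = ω.out⁻¹ * g * ω.out
    rw [hfix]
  rw [e2]
  have e3 : (⟨t⁻¹ * g * t, hmem⟩ : H) =
      (⟨ω.out⁻¹ * t, h1⟩ : H)⁻¹ * ⟨ω.out⁻¹ * g * ω.out, h2⟩ * ⟨ω.out⁻¹ * t, h1⟩ := by
    apply Subtype.ext
    simp only [Subgroup.coe_mul, Subgroup.coe_inv]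
    group
  rw [e3, map_mul, map_mul, map_inv, mul_comm, mul_inv_cancel_left]

/-- the transfer of `lam` as a homomorphism `G →* A`. -/
noncomputable def tr [Fintype (G ⧸ H)] [DecidableEq (G ⧸ H)] : G →* A where
  toFun g := ∏ ω : G ⧸ H, coc H lam g ω
  map_one' := Finset.prod_eq_one (fun ω _ => coc_one (isCoc H lam) ω)
  map_mul' g h := prod_mul (isCoc H lam) (X := Finset.univ) (fun ω => by simp)

theorem tr_apply [Fintype (G ⧸ H)] [DecidableEq (G ⧸ H)] (g : G) :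
    tr H lam g = ∏ ω : G ⧸ H, coc H lam g ω := rfl

end Coset

section Max

variable {G : Type*} [Group G] [Finite G] {p : ℕ} [hp : Fact p.Prime]

/-- a proper subgroup `D` of a `p`-subgroup `U` lies in a maximal subgroup `M` of `U`. -/
theorem exists_max {U D : Subgroup G} (hU : IsPGroup p U) (hDU : D ≤ U) (hne : ¬ U ≤ D) :
    ∃ M : Subgroup G, D ≤ M ∧ M ≤ U ∧ ¬ U ≤ M ∧
      (∀ x ∈ U, ∀ m ∈ M, x⁻¹ * m * x ∈ M) ∧
      (∀ z ∈ U, z ∉ M → ∀ x ∈ U, ∃ i < p, ∃ m ∈ M, x = z ^ i * m) ∧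
      (∀ z ∈ U, z ∉ M → ∀ j : ℕ, z ^ j ∈ M → p ∣ j) := by
  have hpp : p.Prime := hp.out
  have hD' : D.subgroupOf U ≠ ⊤ := by
    intro h
    exact hne (Subgroup.subgroupOf_eq_top.mp h)
  obtain ⟨M', hM', hDM'⟩ : ∃ M', IsCoatom M' ∧ D.subgroupOf U ≤ M' := by
    rcases IsCoatomic.eq_top_or_exists_le_coatom (D.subgroupOf U) with h | h
    · exact absurd h hD'
    · exact h
  have hMn : M'.Normal := Cfsg.Agent.Lib.Helper63.PFrattini.coatom_normal hU M' hM'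
  have hidx : Nat.card (↥U ⧸ M') = p := Cfsg.Agent.Lib.Helper63.PFrattini.coatom_index hU M' hM'
  have hmem : ∀ x : G, x ∈ M'.map U.subtype ↔ ∃ hx : x ∈ U, (⟨x, hx⟩ : ↥U) ∈ M' := by
    intro x
    constructor
    · rintro ⟨y, hy, rfl⟩
      exact ⟨y.2, hy⟩
    · rintro ⟨hx, h⟩
      exact ⟨⟨x, hx⟩, h, rfl⟩
  have hzbar : ∀ z (hz : z ∈ U), z ∉ M'.map U.subtype →
      (QuotientGroup.mk' M' ⟨z, hz⟩) ≠ 1 := by
    intro z hz hzM h
    exact hzM ((hmem z).mpr ⟨hz, (QuotientGroup.eq_one_iff _).mp h⟩)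
  have hpowp : ∀ a : ↥U ⧸ M', a ^ p = 1 := by
    intro a
    rw [← hidx]
    exact pow_card_eq_one'
  refine ⟨M'.map U.subtype, ?_, Subgroup.map_subtype_le M', ?_, ?_, ?_, ?_⟩
  · intro x hx
    exact (hmem x).mpr ⟨hDU hx, hDM' (Subgroup.mem_subgroupOf.mpr hx)⟩
  · intro hUM
    apply hM'.1
    rw [eq_top_iff]
    intro x _
    obtain ⟨_, h⟩ := (hmem x.1).mp (hUM x.2)
    exact h
  · intro x hx m hm
    obtain ⟨hmU, hm'⟩ := (hmem m).mp hm
    refine (hmem _).mpr ⟨U.mul_mem (U.mul_mem (U.inv_mem hx) hmU) hx, ?_⟩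
    have := hMn.conj_mem _ hm' (⟨x, hx⟩ : ↥U)⁻¹
    rw [inv_inv] at this
    exact this
  · intro z hz hzM x hx
    have hz1 := hzbar z hz hzM
    have htop := zpowers_eq_top_of_prime_card hidx hz1
    have hxz : (QuotientGroup.mk' M' ⟨x, hx⟩) ∈ Subgroup.zpowers (QuotientGroup.mk' M' ⟨z, hz⟩) := by
      rw [htop]; trivial
    rw [← mem_powers_iff_mem_zpowers] at hxz
    obtain ⟨n, hn⟩ := hxz
    have hn' : (QuotientGroup.mk' M' ⟨z, hz⟩) ^ (n % p) = QuotientGroup.mk' M' ⟨x, hx⟩ := by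
      rw [← pow_eq_pow_mod n (hpowp _)]
      exact hn
    refine ⟨n % p, Nat.mod_lt _ hpp.pos, (z ^ (n % p))⁻¹ * x, ?_, by group⟩
    refine (hmem _).mpr ⟨U.mul_mem (U.inv_mem (U.pow_mem hz _)) hx, ?_⟩
    have h3 : (QuotientGroup.mk' M' ((⟨z, hz⟩ : ↥U) ^ (n % p))) = QuotientGroup.mk' M' ⟨x, hx⟩ := by
      rw [map_pow]; exact hn'
    have h4 := (QuotientGroup.mk'_eq_mk' M').mp h3
    obtain ⟨w, hw, hw'⟩ := h4
    have h5 : (⟨(z ^ (n % p))⁻¹ * x, U.mul_mem (U.inv_mem (U.pow_mem hz _)) hx⟩ : ↥U) = w := by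
      apply Subtype.ext
      have h6 : z ^ (n % p) * (w : G) = x := by
        have := congrArg Subtype.val hw'
        simpa using this
      show (z ^ (n % p))⁻¹ * x = (w : G)
      rw [← h6]
      group
    rw [h5]
    exact hw
  · intro z hz hzM j hj
    have hz1 := hzbar z hz hzM
    have hord : orderOf (QuotientGroup.mk' M' ⟨z, hz⟩) = p := orderOf_eq_prime (hpowp _) hz1
    rw [← hord]
    apply orderOf_dvd_of_pow_eq_one
    rw [← map_pow]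
    apply (QuotientGroup.eq_one_iff _).mpr
    obtain ⟨hjU, hj'⟩ := (hmem _).mp hj
    exact hj'

end Max

end Cfsg.Agent.Lib.Helper34.WYBase
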