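import Mathlib
import Cfsg.Agent.Lib.Helper34.Cocycle
import Cfsg.Agent.Lib.Helper34.PolyP
import Cfsg.Agent.Lib.Helper34.WYBase
import Cfsg.Agent.Lib.Helper47.Frat

set_option autoImplicit false

namespace Cfsg.Agent.Lib.Helper34.WYLocal

open Cfsg.Agent.Lib.Helper34.Cocycle Cfsg.Agent.Lib.Helper34.WYBase

theorem pow_p_eq_one {p : ℕ} [hp : Fact p.Prime] (a : Multiplicative (ZMod p)) : a ^ p = 1 := by
  apply Multiplicative.toAdd.injective
  rw [toAdd_pow, toAdd_one, nsmul_eq_mul, CharP.cast_eq_zero, zero_mul]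

/-- the local computation: the product of the cocycle values of `u` over a `W`-orbit containing
a `u`-fixed point that is not `W`-fixed is trivial. -/
theorem local_orbit {G : Type*} [Group G] [Finite G] {p : ℕ} [hp : Fact p.Prime]
    {Ω : Type*} [MulAction G Ω] [Fintype Ω] [DecidableEq Ω]
    (c : G → Ω → Multiplicative (ZMod p)) (hc : IsCoc c)
    (S W : Subgroup G) (hS : IsPGroup p S) (hWS : W ≤ S)
    (hnorm : ∀ s ∈ S, ∀ w ∈ W, s * w * s⁻¹ ∈ W)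
    (hneg : ∀ x ∈ S, ∀ z ∈ W, ∀ W₀ : Subgroup ↥W, IsCoatom W₀ →
      (fun y : G => y⁻¹ * z⁻¹ * y * z)^[p - 1] x ∈ W₀.map W.subtype →
      (fun y : G => y⁻¹ * z⁻¹ * y * z)^[p - 1] x ∈
        ((frattini ↥W₀).map W₀.subtype).map W.subtype)
    (u : G) (hu : u ∈ S) (ω : Ω) (hfix : u • ω = ω) (hnf : ∃ w ∈ W, w • ω ≠ ω)
    (O : Finset Ω) (hOdef : ∀ ω', ω' ∈ O ↔ ∃ w ∈ W, w • ω = ω') :
    ∏ ω' ∈ O, c u ω' = 1 := by
  classical
  have hpp : p.Prime := hp.out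
  let U : Subgroup G :=
    { carrier := {x | x ∈ S ∧ ∃ w ∈ W, x • ω = w • ω}
      one_mem' := ⟨S.one_mem, 1, W.one_mem, rfl⟩
      mul_mem' := by
        rintro x y ⟨hx, w₁, hw₁, h₁⟩ ⟨hy, w₂, hw₂, h₂⟩
        refine ⟨S.mul_mem hx hy, x * w₂ * x⁻¹ * w₁, W.mul_mem (hnorm x hx w₂ hw₂) hw₁, ?_⟩
        rw [mul_smul, h₂, mul_smul (x * w₂ * x⁻¹) w₁, ← h₁, ← mul_smul, ← mul_smul]
        congr 1
        group
      inv_mem' := by
        rintro x ⟨hx, w, hw, h⟩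
        refine ⟨S.inv_mem hx, x⁻¹ * w⁻¹ * x, ?_, ?_⟩
        · have := hnorm x⁻¹ (S.inv_mem hx) w⁻¹ (W.inv_mem hw)
          rwa [inv_inv] at this
        · rw [mul_smul, mul_smul, h, inv_smul_smul] }
  have hUmem : ∀ x, x ∈ U ↔ x ∈ S ∧ ∃ w ∈ W, x • ω = w • ω := fun x => Iff.rfl
  have hUS : U ≤ S := fun x hx => hx.1
  have hWU : W ≤ U := fun w hw => ⟨hWS hw, w, hw, rfl⟩
  have huU : u ∈ U := ⟨hu, 1, W.one_mem, by rw [hfix, one_smul]⟩
  have hUp : IsPGroup p U := hS.to_le hUS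
  let D : Subgroup G := U ⊓ MulAction.stabilizer G ω
  have hDU : D ≤ U := inf_le_left
  have hne : ¬ U ≤ D := by
    obtain ⟨w, hw, hwω⟩ := hnf
    intro h
    exact hwω (h (hWU hw)).2
  obtain ⟨M, hDM, hMU, hUM, hMn, hMcos, hMdvd⟩ := exists_max hUp hDU hne
  have huM : u ∈ M := hDM ⟨huU, hfix⟩
  obtain ⟨z, hzW, hzM⟩ : ∃ z ∈ W, z ∉ M := by
    by_contra hcon
    push Not at hcon
    apply hUM
    intro x hx
    obtain ⟨hxS, w, hw, hxw⟩ := hx
    have h1 : w⁻¹ * x ∈ D := by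
      refine ⟨U.mul_mem (U.inv_mem (hWU hw)) ⟨hxS, w, hw, hxw⟩,
        MulAction.mem_stabilizer_iff.mpr ?_⟩
      rw [mul_smul, hxw, inv_smul_smul]
    have h2 := M.mul_mem (hcon w hw) (hDM h1)
    rwa [mul_inv_cancel_left] at h2
  have hzU : z ∈ U := hWU hzW
  let Ω' : Finset Ω := Finset.univ.filter (fun ω' => ∃ m ∈ M, m • ω = ω')
  have hΩ'inv : ∀ m ∈ M, EInv m Ω' := by
    intro m hm
    refine einv_of_subgroup (K := M) ?_ hm
    intro k hk ω' hω'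
    obtain ⟨m', hm', rfl⟩ := (Finset.mem_filter.mp hω').2
    exact Finset.mem_filter.mpr ⟨Finset.mem_univ _, k * m', M.mul_mem hk hm', mul_smul _ _ _⟩
  have hO : O =
      (Finset.range p).biUnion (fun i => Ω'.image (fun ω' => z ^ i • ω')) := by
    ext ω'
    rw [hOdef]
    simp only [Finset.mem_filter, Finset.mem_univ, true_and, Finset.mem_biUnion,
      Finset.mem_range, Finset.mem_image, Ω']
    constructor
    · rintro ⟨w, hw, rfl⟩
      obtain ⟨i, hi, m, hm, e⟩ := hMcos z hzU hzM w (hWU hw)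
      exact ⟨i, hi, m • ω, ⟨m, hm, rfl⟩, by rw [← mul_smul, ← e]⟩
    · rintro ⟨i, hi, ω'', ⟨m, hm, rfl⟩, rfl⟩
      have h1 : z ^ i * m ∈ U := U.mul_mem (U.pow_mem hzU i) (hMU hm)
      obtain ⟨_, w, hw, e⟩ := h1
      exact ⟨w, hw, by rw [← e, mul_smul]⟩
  have hkey : ∀ i j : ℕ, i ≤ j → j < p → ∀ m₁ ∈ M, ∀ m₂ ∈ M,
      z ^ i • m₁ • ω = z ^ j • m₂ • ω → i = j := by
    intro i j hij hjp m₁ hm₁ m₂ hm₂ h
    have e1 : z ^ j = z ^ i * z ^ (j - i) := by rw [← pow_add, Nat.add_sub_cancel' hij]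
    rw [e1, mul_smul] at h
    have h2 := smul_left_cancel _ h
    have h3 : m₁⁻¹ * z ^ (j - i) * m₂ ∈ D := by
      refine ⟨U.mul_mem (U.mul_mem (U.inv_mem (hMU hm₁)) (U.pow_mem hzU _)) (hMU hm₂),
        MulAction.mem_stabilizer_iff.mpr ?_⟩
      rw [mul_smul, mul_smul, ← h2, inv_smul_smul]
    have h4 : z ^ (j - i) ∈ M := by
      have := M.mul_mem (M.mul_mem hm₁ (hDM h3)) (M.inv_mem hm₂)
      have e : m₁ * (m₁⁻¹ * z ^ (j - i) * m₂) * m₂⁻¹ = z ^ (j - i) := by group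
      rwa [e] at this
    have h5 := hMdvd z hzU hzM _ h4
    have h6 : j - i = 0 := Nat.eq_zero_of_dvd_of_lt h5 (by omega)
    omega
  have hdisj : ((Finset.range p : Finset ℕ) : Set ℕ).PairwiseDisjoint
      (fun i => Ω'.image (fun ω' => z ^ i • ω')) := by
    intro i hi j hj hij
    rw [Function.onFun, Finset.disjoint_left]
    intro ω' h1 h2
    obtain ⟨a, ha, rfl⟩ := Finset.mem_image.mp h1
    obtain ⟨b, hb, hab⟩ := Finset.mem_image.mp h2
    obtain ⟨m₁, hm₁, rfl⟩ := (Finset.mem_filter.mp ha).2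
    obtain ⟨m₂, hm₂, rfl⟩ := (Finset.mem_filter.mp hb).2
    have hi' : i < p := Finset.mem_range.mp hi
    have hj' : j < p := Finset.mem_range.mp hj
    rcases Nat.le_total i j with hle | hle
    · exact hij (hkey i j hle hj' m₁ hm₁ m₂ hm₂ hab.symm)
    · exact hij (hkey j i hle hi' m₂ hm₂ m₁ hm₁ hab).symm
  let ν : G → Multiplicative (ZMod p) := fun m => ∏ ω' ∈ Ω', c m ω'
  have hνmul : ∀ a : G, ∀ b ∈ M, ν (a * b) = ν a * ν b := fun a b hb =>
    prod_mul hc (hΩ'inv b hb)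
  have hvM : ∀ i : ℕ, (z ^ i)⁻¹ * u * z ^ i ∈ M := fun i => hMn (z ^ i) (U.pow_mem hzU i) u huM
  have h1 : ∀ i ∈ Finset.range p, ∏ ω' ∈ Ω'.image (fun ω' => z ^ i • ω'), c u ω' =
      ν ((z ^ i)⁻¹ * u * z ^ i) := by
    intro i _
    rw [Finset.prod_image (fun a _ b _ h => smul_left_cancel _ h)]
    exact prod_twist hc (by group : u * z ^ i = z ^ i * ((z ^ i)⁻¹ * u * z ^ i))
      (hΩ'inv _ (hvM i))
  rw [hO, Finset.prod_biUnion hdisj, Finset.prod_congr rfl h1]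
  -- the polynomial identity
  let κ : ↥M →* ↥M :=
    { toFun := fun m => ⟨z⁻¹ * m.1 * z, hMn z hzU m.1 m.2⟩
      map_one' := Subtype.ext (by simp)
      map_mul' := fun a b => Subtype.ext (by simp only [Subgroup.coe_mul]; group) }
  let f : ↥M → ZMod p := fun m => Multiplicative.toAdd (ν m.1)
  have hf : ∀ x y : ↥M, f (x * y) = f x + f y := by
    intro x y
    show Multiplicative.toAdd (ν (x.1 * y.1)) = _
    rw [hνmul x.1 y.1 y.2, toAdd_mul]
  have h2 := Cfsg.Agent.Lib.Helper34.PolyP.sum_iter_eq κ f hf ⟨u, huM⟩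
  have hκi : ∀ i : ℕ, ((κ^[i] ⟨u, huM⟩ : ↥M) : G) = (z ^ i)⁻¹ * u * z ^ i := by
    intro i
    induction i with
    | zero => simp
    | succ i ih =>
      rw [Function.iterate_succ_apply']
      show z⁻¹ * ((κ^[i] ⟨u, huM⟩ : ↥M) : G) * z = _
      rw [ih, pow_succ]
      group
  have hci : ∀ j : ℕ, (((fun y : ↥M => y⁻¹ * κ y)^[j] ⟨u, huM⟩ : ↥M) : G) =
      (fun y : G => y⁻¹ * z⁻¹ * y * z)^[j] u := by
    intro j
    induction j with
    | zero => rfl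
    | succ j ih =>
      rw [Function.iterate_succ_apply', Function.iterate_succ_apply']
      show (((fun y : ↥M => y⁻¹ * κ y)^[j] ⟨u, huM⟩ : ↥M) : G)⁻¹ *
        (z⁻¹ * (((fun y : ↥M => y⁻¹ * κ y)^[j] ⟨u, huM⟩ : ↥M) : G) * z) = _
      rw [ih]
      group
  obtain ⟨ξ, hξ⟩ : ∃ ξ : G, ξ = (fun y : G => y⁻¹ * z⁻¹ * y * z)^[p - 1] u := ⟨_, rfl⟩
  have hξM : ξ ∈ M := by
    rw [hξ, ← hci]
    exact Subtype.property _
  have h3 : ∏ i ∈ Finset.range p, ν ((z ^ i)⁻¹ * u * z ^ i) = ν ξ := by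
    apply Multiplicative.toAdd.injective
    rw [toAdd_prod, hξ, ← hci (p - 1)]
    refine Eq.trans ?_ h2
    apply Finset.sum_congr rfl
    intro i _
    show _ = Multiplicative.toAdd (ν ((κ^[i] ⟨u, huM⟩ : ↥M) : G))
    rw [hκi]
  rw [h3]
  -- `ξ ∈ W`
  have hcW : ∀ y ∈ S, y⁻¹ * z⁻¹ * y * z ∈ W := by
    intro y hy
    have h := hnorm y⁻¹ (S.inv_mem hy) z⁻¹ (W.inv_mem hzW)
    rw [inv_inv] at h
    exact W.mul_mem h hzW
  have hcS : ∀ j : ℕ, (fun y : G => y⁻¹ * z⁻¹ * y * z)^[j] u ∈ S := by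
    intro j
    induction j with
    | zero => exact hu
    | succ j ih =>
      rw [Function.iterate_succ_apply']
      exact hWS (hcW _ ih)
  have hξW : ξ ∈ W := by
    have e : p - 1 = (p - 2) + 1 := by have := hpp.two_le; omega
    rw [hξ, e, Function.iterate_succ_apply']
    exact hcW _ (hcS _)
  -- the maximal subgroup `W ∩ M` of `W`
  let W₀ : Subgroup ↥W := M.subgroupOf W
  have hW₀ : IsCoatom W₀ := by
    constructor
    · intro h
      exact hzM (Subgroup.subgroupOf_eq_top.mp h hzW)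
    · intro K hK
      obtain ⟨a, haK, haM⟩ := SetLike.exists_of_lt hK
      rw [eq_top_iff]
      intro b _
      have haM' : (a : G) ∉ M := fun h => haM (Subgroup.mem_subgroupOf.mpr h)
      obtain ⟨i, _, m, hm, e⟩ := hMcos a.1 (hWU a.2) haM' b.1 (hWU b.2)
      have hmW : m ∈ W := by
        have e2 : m = ((a : G) ^ i)⁻¹ * b := by rw [e]; group
        rw [e2]
        exact W.mul_mem (W.inv_mem (W.pow_mem a.2 i)) b.2
      have e3 : b = a ^ i * ⟨m, hmW⟩ := Subtype.ext (by simp [e])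
      rw [e3]
      exact K.mul_mem (K.pow_mem haK i) (hK.le (Subgroup.mem_subgroupOf.mpr hm))
  have h4 := hneg u hu z hzW W₀ hW₀
    (hξ ▸ ⟨⟨ξ, hξW⟩, Subgroup.mem_subgroupOf.mpr hξM, rfl⟩)
  rw [← hξ] at h4
  obtain ⟨a, ⟨φ, hφ, rfl⟩, haξ⟩ := h4
  let g : ↥W₀ →* Multiplicative (ZMod p) :=
    { toFun := fun a => ν a.1.1
      map_one' := Finset.prod_eq_one (fun ω' _ => coc_one hc ω')
      map_mul' := fun a b => hνmul a.1.1 b.1.1 (Subgroup.mem_subgroupOf.mp b.2) }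
  have hfr : frattini ↥W₀ ≤ g.ker :=
    Cfsg.Agent.Lib.Helper47.Frat.frattini_le_of_pow_comm (p := p) g.ker
      (fun x => by rw [MonoidHom.mem_ker, map_pow]; exact pow_p_eq_one _)
      (Abelianization.commutator_subset_ker g)
  have h5 : g φ = 1 := hfr hφ
  rw [← haξ]
  exact h5

end Cfsg.Agent.Lib.Helper34.WYLocal
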