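import Mathlib
import Cfsg.Prelude.Def_Transfer
import Cfsg.Agent.Lib.Helper34.WYLocal
import Cfsg.Agent.Lib.Helper33.Conj

set_option autoImplicit false

namespace Cfsg.Agent.Lib.Helper34.WYMain

open Cfsg.Agent.Lib.Helper34.Cocycle Cfsg.Agent.Lib.Helper34.WYBase
  Cfsg.Agent.Lib.Helper34.WYLocal Cfsg.Agent.Lib.Helper33.Conj

theorem hom_conj {G A : Type*} [Group G] [CommGroup A] (φ : G →* A) (a b : G) :
    φ (a * b * a⁻¹) = φ b := by
  rw [map_mul, map_mul, map_inv, mul_comm, inv_mul_cancel_left]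

/-- **Wielandt–Yoshida**, main step: if no iterated commutator `[x, z; p-1]` lies in
`W₀ \ Φ(W₀)`, every character `lam : N_G(W) → C_p` agrees on `S` with a character of `G`
(namely the transfer of `lam`). -/
theorem main' {G : Type*} [Group G] [Finite G] {p : ℕ} [hp : Fact p.Prime] (S : Sylow p G)
    (W : Subgroup G) (hW : Cfsg.IsWeaklyClosed W (S : Subgroup G))
    (hneg : ∀ x ∈ (S : Subgroup G), ∀ z ∈ W, ∀ W₀ : Subgroup ↥W, IsCoatom W₀ →
      (fun y : G => y⁻¹ * z⁻¹ * y * z)^[p - 1] x ∈ W₀.map W.subtype →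
      (fun y : G => y⁻¹ * z⁻¹ * y * z)^[p - 1] x ∈
        ((frattini ↥W₀).map W₀.subtype).map W.subtype)
    (H : Subgroup G) (hHdef : H = Subgroup.normalizer (W : Set G))
    (lam : ↥H →* Multiplicative (ZMod p)) :
    ∃ mu : G →* Multiplicative (ZMod p), ∀ (s : G) (_ : s ∈ (S : Subgroup G))
      (hsH : s ∈ H), mu s = lam ⟨s, hsH⟩ := by
  classical
  have hpp : p.Prime := hp.out
  have hnormS : ∀ s ∈ (S : Subgroup G), ∀ w ∈ W, s * w * s⁻¹ ∈ W := by
    intro s hs w hw
    have h1 := hW.2 s (cj_le_of_le_of_mem hW.1 hs)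
    have h2 : s * w * s⁻¹ ∈ W.map (MulAut.conj s).toMonoidHom := conj_mem_cj hw
    rwa [h1] at h2
  have hSH : (S : Subgroup G) ≤ H := by
    intro s hs
    rw [hHdef]
    exact mem_normalizer_iff_cj_eq.mpr (hW.2 s (cj_le_of_le_of_mem hW.1 hs))
  have hsyl : IsSylIn p (S : Subgroup G) H := isSylIn_of_sylow S hSH
  let _ : Fintype (G ⧸ H) := Fintype.ofFinite _
  obtain ⟨c, hcdef⟩ : ∃ c : G → G ⧸ H → Multiplicative (ZMod p), c = coc H lam := ⟨_, rfl⟩
  have hc : IsCoc c := hcdef ▸ isCoc H lam
  obtain ⟨mu, hmu⟩ : ∃ mu : G →* Multiplicative (ZMod p), mu = tr H lam := ⟨_, rfl⟩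
  have hmu_apply : ∀ g : G, mu g = ∏ ω : G ⧸ H, c g ω := by
    intro g
    rw [hmu, hcdef]
    rfl
  obtain ⟨ω₀, hω₀def⟩ : ∃ ω₀ : G ⧸ H, ω₀ = ((1 : G) : G ⧸ H) := ⟨_, rfl⟩
  have hω₀ : ∀ h ∈ H, h • ω₀ = ω₀ := by
    intro h hh
    rw [hω₀def, MulAction.Quotient.smul_mk, QuotientGroup.eq]
    simpa using hh
  have hWfix : ∀ ω : G ⧸ H, (∀ w ∈ W, w • ω = ω) → ω = ω₀ := by
    intro ω hω
    have ht : ((ω.out : G) : G ⧸ H) = ω := QuotientGroup.out_eq' ω
    obtain ⟨t, htdef⟩ : ∃ t : G, t = ω.out := ⟨_, rfl⟩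
    rw [← htdef] at ht
    have h1 : ∀ w ∈ W, t⁻¹ * w * t ∈ H := by
      intro w hw
      have h2 := hω w hw
      rw [← ht, MulAction.Quotient.smul_mk, QuotientGroup.eq] at h2
      have e : t⁻¹ * w * t = ((w • t)⁻¹ * t)⁻¹ := by
        rw [smul_eq_mul]; group
      rw [e]
      exact H.inv_mem h2
    have hQH : W.map (MulAut.conj t⁻¹).toMonoidHom ≤ H := by
      rintro _ ⟨w, hw, rfl⟩
      have := h1 w hw
      simpa [MulAut.conj_apply] using this
    have hQp : IsPGroup p ↥(W.map (MulAut.conj t⁻¹).toMonoidHom) :=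
      isPGroup_cj _ (S.2.to_le hW.1)
    obtain ⟨h, hh, hle⟩ := hsyl.exists_cj_le hQH hQp
    rw [cj_cj] at hle
    have h3 := hW.2 _ hle
    have h4 : h * t⁻¹ ∈ H := by
      rw [hHdef]
      exact mem_normalizer_iff_cj_eq.mpr h3
    have h5 : t ∈ H := by
      have := H.mul_mem (H.inv_mem h4) hh
      have e : (h * t⁻¹)⁻¹ * h = t := by group
      rwa [e] at this
    rw [← ht, hω₀def, QuotientGroup.eq]
    simpa using H.inv_mem h5
  refine ⟨mu, ?_⟩
  have key : ∀ n : ℕ, ∀ u : G, u ∈ (S : Subgroup G) → orderOf u = n → ∀ huH : u ∈ H,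
      mu u = lam ⟨u, huH⟩ := by
    intro n
    induction n using Nat.strong_induction_on with
    | _ n ih =>
      intro u huS hord huH
      -- Step A: return values at non-fixed points are trivial
      have hret : ∀ ω : G ⧸ H, u • ω ≠ ω → ∀ k : ℕ, 0 < k → u ^ k • ω = ω →
          c (u ^ k) ω = 1 := by
        intro ω hnfix k hk hfixk
        obtain ⟨e, he⟩ := S.2 ⟨u, huS⟩
        have he' : u ^ (p ^ e) = 1 := by
          have := congrArg Subtype.val he
          simpa using this
        have hdvd : orderOf u ∣ p ^ e := orderOf_dvd_of_pow_eq_one he'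
        have hpk : p ∣ k := by
          by_contra hnd
          have hcop : Nat.Coprime k (orderOf u) :=
            Nat.Coprime.coprime_dvd_right hdvd
              (Nat.Coprime.pow_right e ((Nat.Prime.coprime_iff_not_dvd hpp).mpr hnd).symm)
          obtain ⟨m, hm⟩ := exists_pow_eq_self_of_coprime hcop
          have h1 : u ^ k ∈ MulAction.stabilizer G ω := hfixk
          have h2 := Subgroup.pow_mem _ h1 m
          rw [hm] at h2
          exact hnfix h2
        have hu1 : u ≠ 1 := by
          rintro rfl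
          exact hnfix (one_smul _ _)
        have hlt : orderOf (u ^ k) < orderOf u := by
          have hpos : 0 < orderOf u := orderOf_pos u
          have hpo : p ∣ orderOf u := by
            rcases (Nat.dvd_prime_pow hpp).mp hdvd with ⟨j, _, hj⟩
            rcases Nat.eq_zero_or_pos j with h0 | hjpos
            · rw [h0, pow_zero, orderOf_eq_one_iff] at hj
              exact absurd hj hu1
            · rw [hj]
              exact dvd_pow_self p (by omega)
          rw [orderOf_pow' u (by omega : k ≠ 0)]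
          apply Nat.div_lt_self hpos
          have hg : p ∣ Nat.gcd (orderOf u) k := Nat.dvd_gcd hpo hpk
          have hgpos : 0 < Nat.gcd (orderOf u) k := Nat.gcd_pos_of_pos_left _ hpos
          exact lt_of_lt_of_le hpp.one_lt (Nat.le_of_dvd hgpos hg)
        obtain ⟨t, ht⟩ : ∃ t : G, (t : G ⧸ H) = ω := ⟨ω.out, QuotientGroup.out_eq' ω⟩
        obtain ⟨hmem, hval⟩ := coc_fixed H lam (u ^ k) ω hfixk t ht
        rw [hcdef, hval]
        have hQH : (Subgroup.zpowers (u ^ k)).map (MulAut.conj t⁻¹).toMonoidHom ≤ H := by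
          rw [Subgroup.map_le_iff_le_comap, Subgroup.zpowers_le, Subgroup.mem_comap]
          simpa [MulAut.conj_apply] using hmem
        have hQp : IsPGroup p ↥((Subgroup.zpowers (u ^ k)).map (MulAut.conj t⁻¹).toMonoidHom) :=
          isPGroup_cj _ (S.2.to_le (Subgroup.zpowers_le.mpr (Subgroup.pow_mem _ huS k)))
        obtain ⟨h, hh, hle⟩ := hsyl.exists_cj_le hQH hQp
        have hvQ : t⁻¹ * u ^ k * t ∈
            (Subgroup.zpowers (u ^ k)).map (MulAut.conj t⁻¹).toMonoidHom :=
          ⟨u ^ k, Subgroup.mem_zpowers _, by simp⟩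
        have hv'S : h * (t⁻¹ * u ^ k * t) * h⁻¹ ∈ (S : Subgroup G) := hle (conj_mem_cj hvQ)
        have hv'eq : h * (t⁻¹ * u ^ k * t) * h⁻¹ = (h * t⁻¹) * u ^ k * (h * t⁻¹)⁻¹ := by group
        have hv'ord : orderOf (h * (t⁻¹ * u ^ k * t) * h⁻¹) = orderOf (u ^ k) := by
          have := orderOf_injective (MulAut.conj (h * t⁻¹)).toMonoidHom
            (MulEquiv.injective _) (u ^ k)
          have e2 : (MulAut.conj (h * t⁻¹)).toMonoidHom (u ^ k) =
              h * (t⁻¹ * u ^ k * t) * h⁻¹ := by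
            show (h * t⁻¹) * u ^ k * (h * t⁻¹)⁻¹ = _
            group
          rw [← e2]
          exact this
        have h1 := ih _ (by rw [hv'ord, ← hord]; exact hlt) _ hv'S rfl (hSH hv'S)
        have h2 : mu (h * (t⁻¹ * u ^ k * t) * h⁻¹) = 1 := by
          rw [hv'eq, hom_conj, map_pow]
          obtain ⟨k', rfl⟩ := hpk
          rw [pow_mul, pow_p_eq_one, one_pow]
        have h3 : lam ⟨h * (t⁻¹ * u ^ k * t) * h⁻¹, hSH hv'S⟩ = lam ⟨t⁻¹ * u ^ k * t, hmem⟩ := by
          have e : (⟨h * (t⁻¹ * u ^ k * t) * h⁻¹, hSH hv'S⟩ : ↥H) =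
              ⟨h, hh⟩ * ⟨t⁻¹ * u ^ k * t, hmem⟩ * (⟨h, hh⟩ : ↥H)⁻¹ := Subtype.ext (by simp)
          rw [e, hom_conj]
        rw [← h3, ← h1, h2]
      -- Step C: invariant sets avoiding the trivial coset
      have hC : ∀ (Y : Finset (G ⧸ H)), (∀ w ∈ W, EInv w Y) → EInv u Y → ω₀ ∉ Y →
          ∏ ω ∈ Y, c u ω = 1 := by
        intro Y
        induction hm : Y.card using Nat.strong_induction_on generalizing Y with
        | _ m ihY =>
          intro hYW hYu hY0
          by_cases hex : ∃ ω ∈ Y, u • ω = ω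
          · obtain ⟨ω, hωY, hfix⟩ := hex
            let O : Finset (G ⧸ H) := Finset.univ.filter (fun ω' => ∃ w ∈ W, w • ω = ω')
            have hOdef : ∀ ω', ω' ∈ O ↔ ∃ w ∈ W, w • ω = ω' := by
              intro ω'
              simp [O]
            have hnf : ∃ w ∈ W, w • ω ≠ ω := by
              by_contra hcon
              push Not at hcon
              exact hY0 (hWfix ω hcon ▸ hωY)
            have hOprod := local_orbit c hc (S : Subgroup G) W S.2 hW.1 hnormS hneg u huS ω
              hfix hnf O hOdef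
            have hOY : O ⊆ Y := by
              intro ω' hω'
              obtain ⟨w, hw, rfl⟩ := (hOdef ω').mp hω'
              exact (hYW w hw ω).mpr hωY
            have hOW : ∀ w ∈ W, EInv w O := by
              intro w hw
              refine einv_of_subgroup (K := W) ?_ hw
              intro k hk ω' hω'
              obtain ⟨w', hw', rfl⟩ := (hOdef ω').mp hω'
              exact (hOdef _).mpr ⟨k * w', W.mul_mem hk hw', mul_smul _ _ _⟩
            have hOu : EInv u O := by
              refine einv_of_subgroup (K := Subgroup.zpowers u) ?_ (Subgroup.mem_zpowers u)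
              intro k hk ω' hω'
              obtain ⟨w', hw', rfl⟩ := (hOdef ω').mp hω'
              have hkS : k ∈ (S : Subgroup G) := (Subgroup.zpowers_le.mpr huS) hk
              have hkfix : k ∈ MulAction.stabilizer G ω :=
                (Subgroup.zpowers_le (H := MulAction.stabilizer G ω)).mpr hfix hk
              have hkfix' : k⁻¹ • ω = ω := Subgroup.inv_mem _ hkfix
              refine (hOdef _).mpr ⟨k * w' * k⁻¹, hnormS k hkS w' hw', ?_⟩
              rw [mul_smul, mul_smul, hkfix']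
            have hωO : ω ∈ O := (hOdef ω).mpr ⟨1, W.one_mem, one_smul _ _⟩
            have hcard : (Y \ O).card < m := by
              rw [← hm]
              apply Finset.card_lt_card
              refine ⟨Finset.sdiff_subset, fun h => ?_⟩
              exact (Finset.mem_sdiff.mp (h hωY)).2 hωO
            have h3 := ihY _ hcard (Y \ O) rfl (fun w hw => (hYW w hw).sdiff (hOW w hw))
              (hYu.sdiff hOu) (fun h => hY0 (Finset.mem_sdiff.mp h).1)
            rw [← Finset.prod_sdiff hOY, h3, hOprod, one_mul]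
          · push Not at hex
            exact prod_eq_one_of_return hc (isOfFinOrder_of_finite u) Y hYu
              (fun ω hω k hk hfixk => hret ω (hex ω hω) k hk hfixk)
      -- Step D
      have hinv : ∀ g ∈ H, EInv g (Finset.univ.erase ω₀) := by
        intro g hg ω
        simp only [Finset.mem_erase, Finset.mem_univ, and_true]
        constructor
        · intro h1 h2
          exact h1 (by rw [h2, hω₀ g hg])
        · intro h1 h2
          apply h1
          have := congrArg (fun x => g⁻¹ • x) h2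
          simp only [inv_smul_smul] at this
          rw [this, hω₀ g⁻¹ (H.inv_mem hg)]
      have hYuniv : ∏ ω ∈ Finset.univ.erase ω₀, c u ω = 1 :=
        hC _ (fun w hw => hinv w (hSH (hW.1 hw))) (hinv u huH) (Finset.notMem_erase _ _)
      rw [hmu_apply, ← Finset.mul_prod_erase Finset.univ _ (Finset.mem_univ ω₀), hYuniv, mul_one]
      obtain ⟨hmem, hval⟩ := coc_fixed H lam u ω₀ (hω₀ u huH) 1 hω₀def.symm
      rw [hcdef, hval]
      congr 1
      apply Subtype.ext
      simp
  intro s hs hsH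
  exact key _ s hs rfl hsH

theorem main {G : Type*} [Group G] [Finite G] {p : ℕ} [hp : Fact p.Prime] (S : Sylow p G)
    (W : Subgroup G) (hW : Cfsg.IsWeaklyClosed W (S : Subgroup G))
    (hneg : ∀ x ∈ (S : Subgroup G), ∀ z ∈ W, ∀ W₀ : Subgroup ↥W, IsCoatom W₀ →
      (fun y : G => y⁻¹ * z⁻¹ * y * z)^[p - 1] x ∈ W₀.map W.subtype →
      (fun y : G => y⁻¹ * z⁻¹ * y * z)^[p - 1] x ∈
        ((frattini ↥W₀).map W₀.subtype).map W.subtype)
    (lam : ↥(Subgroup.normalizer (W : Set G)) →* Multiplicative (ZMod p)) :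
    ∃ mu : G →* Multiplicative (ZMod p), ∀ (s : G) (_ : s ∈ (S : Subgroup G))
      (hsH : s ∈ Subgroup.normalizer (W : Set G)), mu s = lam ⟨s, hsH⟩ :=
  main' S W hW hneg _ rfl lam

end Cfsg.Agent.Lib.Helper34.WYMain
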