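import Mathlib
import Cfsg.Prelude.Def_Transfer
import Cfsg.Agent.Lib.Helper34.PResidual
import Cfsg.Agent.Lib.Helper4.Tate
import Cfsg.Agent.Lib.Helper2.Focal

set_option autoImplicit false

namespace Cfsg.Agent.Lib.Helper34.WYTate

open Cfsg
open scoped IsMulCommutative

/-- a homomorphism into a group of exponent `p` kills `O^p`. -/
theorem pResidual_le_ker {X A : Type*} [Group X] [Group A] {p : ℕ} [hp : Fact p.Prime]
    (φ : X →* A) (hA : ∀ a : A, a ^ p = 1) : Cfsg.pResidual p X ≤ φ.ker := by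
  have hpp : p.Prime := hp.out
  unfold Cfsg.pResidual
  rw [Subgroup.closure_le]
  intro g hg
  have hg' : Nat.Coprime (orderOf g) p := hg
  rw [SetLike.mem_coe, MonoidHom.mem_ker]
  have h1 : orderOf (φ g) ∣ p := orderOf_dvd_of_pow_eq_one (hA _)
  have h2 : orderOf (φ g) ∣ orderOf g := orderOf_map_dvd _ g
  exact orderOf_eq_one_iff.mp (Nat.eq_one_of_dvd_coprimes hg' h2 h1)

/-- extension of a homomorphism from `H` (of index prime to `p`) to `G`, when it kills
`O^p(G) ∩ H`. -/
theorem exists_extension {G A : Type*} [Group G] [Finite G] [Group A] {p : ℕ}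
    [hp : Fact p.Prime] (H : Subgroup G) (hH : ¬ p ∣ H.index) (θ : ↥H →* A)
    (hθ : (Cfsg.pResidual p G).subgroupOf H ≤ θ.ker) :
    ∃ Θ : G →* A, ∀ x : ↥H, Θ x.1 = θ x := by
  classical
  have hpp : p.Prime := hp.out
  have hn : (Cfsg.pResidual p G).Normal := Cfsg.Agent.Lib.Helper34.PResidual.pResidual_normal p G
  have hdec : ∀ g : G, ∃ s : ↥H, ∃ m ∈ Cfsg.pResidual p G, g = s.1 * m := by
    intro g
    obtain ⟨s, hs, m, hm, e⟩ :=
      Cfsg.Agent.Lib.Helper34.PResidual.exists_mul_of_not_dvd_index hpp H hH g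
    exact ⟨⟨s, hs⟩, m, hm, e⟩
  let F : G → A := fun g => θ (Classical.choose (hdec g))
  have hF : ∀ (g : G) (s : ↥H) (m : G), m ∈ Cfsg.pResidual p G → g = s.1 * m → F g = θ s := by
    intro g s m hm e
    obtain ⟨m', hm', e'⟩ := Classical.choose_spec (hdec g)
    have h1 : s⁻¹ * Classical.choose (hdec g) ∈ (Cfsg.pResidual p G).subgroupOf H := by
      rw [Subgroup.mem_subgroupOf]
      have e2 : ((s⁻¹ * Classical.choose (hdec g) : ↥H) : G) = m * m'⁻¹ := by
        simp only [Subgroup.coe_mul, Subgroup.coe_inv]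
        have e3 : (s : G) * m = ((Classical.choose (hdec g) : ↥H) : G) * m' := by rw [← e, ← e']
        have e4 : ((Classical.choose (hdec g) : ↥H) : G) = (s : G) * m * m'⁻¹ := by
          rw [e3]; group
        rw [e4]; group
      rw [e2]
      exact Subgroup.mul_mem _ hm (Subgroup.inv_mem _ hm')
    have h2 := hθ h1
    rw [MonoidHom.mem_ker, map_mul, map_inv] at h2
    show θ (Classical.choose (hdec g)) = θ s
    exact (inv_mul_eq_one.mp h2).symm
  have hmul : ∀ a b : G, F (a * b) = F a * F b := by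
    intro a b
    obtain ⟨s₁, m₁, hm₁, e₁⟩ := hdec a
    obtain ⟨s₂, m₂, hm₂, e₂⟩ := hdec b
    have e : a * b = ((s₁ * s₂ : ↥H) : G) * ((s₂ : G)⁻¹ * m₁ * (s₂ : G) * m₂) := by
      rw [e₁, e₂]
      simp only [Subgroup.coe_mul]
      group
    have hm : (s₂ : G)⁻¹ * m₁ * (s₂ : G) * m₂ ∈ Cfsg.pResidual p G := by
      apply Subgroup.mul_mem _ _ hm₂
      have := hn.conj_mem m₁ hm₁ (s₂ : G)⁻¹
      rwa [inv_inv] at this
    rw [hF (a * b) (s₁ * s₂) _ hm e, hF a s₁ m₁ hm₁ e₁, hF b s₂ m₂ hm₂ e₂, map_mul]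
  refine ⟨MonoidHom.mk' F hmul, fun x => ?_⟩
  show F x.1 = θ x
  exact hF x.1 x 1 (Subgroup.one_mem _) (by rw [mul_one])

/-- **Tate-type reduction**: if every character `H → C_p` of a subgroup `H ≥ S` agrees on `S`
with a character of `G`, then `S ∩ G' ≤ H'`. -/
theorem focal_le_of_extends {G : Type*} [Group G] [Finite G] {p : ℕ} [hp : Fact p.Prime]
    (S : Sylow p G) (H : Subgroup G) (hSH : (S : Subgroup G) ≤ H)
    (hext : ∀ lam : ↥H →* Multiplicative (ZMod p), ∃ mu : G →* Multiplicative (ZMod p),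
      ∀ (s : G) (_ : s ∈ (S : Subgroup G)) (hsH : s ∈ H), mu s = lam ⟨s, hsH⟩) :
    (S : Subgroup G) ⊓ commutator G ≤ ⁅H, H⁆ := by
  classical
  have hpp : p.Prime := hp.out
  have hA : ∀ a : Multiplicative (ZMod p), a ^ p = 1 := by
    intro a
    apply Multiplicative.toAdd.injective
    rw [toAdd_pow, toAdd_one, nsmul_eq_mul, CharP.cast_eq_zero, zero_mul]
  have hHidx : ¬ p ∣ H.index := fun hd =>
    S.not_dvd_index (dvd_trans hd (Subgroup.index_dvd_of_le hSH))
  let P : Sylow p ↥H := S.subtype hSH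
  have hPmem : ∀ x : ↥H, x ∈ (P : Subgroup ↥H) ↔ (x : G) ∈ (S : Subgroup G) := by
    intro x
    rw [Sylow.coe_subtype, Subgroup.mem_subgroupOf]
  have hn : (Cfsg.pResidual p G).Normal := Cfsg.Agent.Lib.Helper34.PResidual.pResidual_normal p G
  -- Tate
  have htate : (Cfsg.pResidual p G).subgroupOf H ≤ Cfsg.pResidual p ↥H := by
    apply Cfsg.Agent.Lib.Helper4.Tate.tate hpp H hHidx (Cfsg.pResidual p G) le_rfl
    intro M hMn hMidx
    have := hMn
    have hcard : Nat.card (↥H ⧸ M) = p := hMidx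
    have : IsCyclic (↥H ⧸ M) := isCyclic_of_prime_card hcard
    have e := zmodCyclicMulEquiv (G := ↥H ⧸ M) inferInstance
    rw [hcard] at e
    let lam : ↥H →* Multiplicative (ZMod p) := e.symm.toMonoidHom.comp (QuotientGroup.mk' M)
    have hlam : ∀ x : ↥H, lam x = 1 → x ∈ M := by
      intro x hx
      have h1 : e.symm (QuotientGroup.mk' M x) = 1 := hx
      have h2 : QuotientGroup.mk' M x = 1 := by
        have := congrArg e h1
        rwa [MulEquiv.apply_symm_apply, map_one] at this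
      exact (QuotientGroup.eq_one_iff x).mp h2
    obtain ⟨mu, hmu⟩ := hext lam
    -- `lam` and `mu` agree on `H`
    have hagree : ∀ x : ↥H, lam x = mu x.1 := by
      intro x
      obtain ⟨s, hs, m, hm, rfl⟩ :=
        Cfsg.Agent.Lib.Helper34.PResidual.exists_mul_of_not_dvd_index hpp (P : Subgroup ↥H)
          P.not_dvd_index x
      have h1 : lam m = 1 := pResidual_le_ker lam hA hm
      have h2 : (mu.comp H.subtype) m = 1 := pResidual_le_ker (mu.comp H.subtype) hA hm
      have h3 : mu (m : G) = 1 := h2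
      have h4 : mu (s : G) = lam s := hmu s.1 ((hPmem s).mp hs) s.2
      rw [map_mul, h1, Subgroup.coe_mul, map_mul, h3, h4]
    intro x hx
    apply hlam
    rw [hagree]
    exact pResidual_le_ker mu hA (Subgroup.mem_subgroupOf.mp hx)
  -- extend the focal transfer of `H`
  have hker : (Cfsg.pResidual p G).subgroupOf H ≤ (P : Subgroup ↥H).transferFocal.ker :=
    htate.trans (Cfsg.Agent.Lib.Helper2.Focal.pResidual_le_ker_transferFocal P)
  obtain ⟨Θ, hΘ⟩ := exists_extension H hHidx (P : Subgroup ↥H).transferFocal hker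
  intro x hx
  have hxS : x ∈ (S : Subgroup G) := hx.1
  have hxH : x ∈ H := hSH hxS
  have h1 : Θ x = 1 := Abelianization.commutator_subset_ker Θ hx.2
  have h2 : (P : Subgroup ↥H).transferFocal ⟨x, hxH⟩ = 1 := by
    rw [← hΘ]
    exact h1
  have h3 : (⟨x, hxH⟩ : ↥H) ∈ (P : Subgroup ↥H).transferFocal.ker ⊓ (P : Subgroup ↥H) :=
    ⟨h2, (hPmem _).mpr hxS⟩
  rw [Subgroup.ker_transferFocal_inf_eq_focalSubgroup, ← Subgroup.commutator_inf_eq_focalSubgroup]
    at h3
  rw [← Subgroup.map_subtype_commutator]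
  exact ⟨⟨x, hxH⟩, h3.1, rfl⟩

end Cfsg.Agent.Lib.Helper34.WYTate
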